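/-
The configuration used for the 2-local of pentad type in groups of Janko-four type: an element `q`
of order five, an element `s` of order seven centralizing it, the elementary subgroup `E` of order
eight of the centralizer of `q` and the centralizers of `q` and `s`.
-/
import Mathlib
import Cfsg.Prelude.Def_Spor_Mathieu
import Cfsg.Prelude.Def_JankoFourType

set_option autoImplicit false

universe u

namespace CfsgLib.J4Pentad

/-- The configuration: everything that follows from the conclusions of S5572 and S5573 together with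
three facts inside the centralizer of `z` (`core`, `small`, `three`). -/
structure Pentad (G : Type u) [Group G] where
  z : G
  q : G
  s : G
  E : Subgroup G
  J : Subgroup G
  I : Subgroup G
  hz : orderOf z = 2
  hq : orderOf q = 5
  hs : orderOf s = 7
  zE : z ∈ E
  sqE : ∀ a ∈ E, a * a = 1
  cardE : Nat.card E = 8
  clsE : ∀ a ∈ E, a ≠ 1 → IsConj z a
  cardJ : Nat.card J = 1344
  EJ : E ≤ J
  JE : J ≤ Subgroup.normalizer (E : Set G)
  centJ : J ⊓ Subgroup.centralizer (E : Set G) = E
  sJ : s ∈ J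
  cq : Subgroup.centralizer ({q} : Set G) = J ⊔ Subgroup.zpowers q
  Jq : J ⊓ Subgroup.zpowers q = ⊥
  transJ : ∀ a ∈ E, a ≠ 1 → ∀ b ∈ E, b ≠ 1 → ∃ g ∈ J, g * a * g⁻¹ = b
  noCompl : ∀ K : Subgroup G, K ≤ J → K ⊓ E = ⊥ → K ⊔ E = J → False
  normQ : Subgroup.normalizer (Subgroup.zpowers q : Set G) ≤ Subgroup.normalizer (E : Set G)
  qnorm : ∃ r, r * q * r⁻¹ = q * q
  cs : Subgroup.centralizer ({s} : Set G) = I ⊔ Subgroup.zpowers s
  Is : I ⊓ Subgroup.zpowers s = ⊥
  eI : Nonempty (I ≃* Equiv.Perm (Fin 5))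
  cardNs : Nat.card ↥(Subgroup.normalizer (Subgroup.zpowers s : Set G)) = 2520
  five : ¬ 25 ∣ Nat.card G
  seven : ¬ 49 ∣ Nat.card G
  /-- `E` lies in the 2-cores of the centralizers of its involutions. -/
  core : ∀ a ∈ E, a ≠ 1 → E ≤ Cfsg.twoCoreOfCentralizer a
  /-- The centralizer of `E` meets the 2-core of `z` in a non-abelian group of order at least `2 ^ 11`. -/
  big : 2 ^ 11 ≤ Nat.card ↥(Cfsg.twoCoreOfCentralizer z ⊓ Subgroup.centralizer (E : Set G))
  nonab : ∃ a ∈ Cfsg.twoCoreOfCentralizer z ⊓ Subgroup.centralizer (E : Set G),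
    ∃ b ∈ Cfsg.twoCoreOfCentralizer z ⊓ Subgroup.centralizer (E : Set G), a * b ≠ b * a
  /-- The 2-part of the centralizer of `E` is at most `2 ^ 19`. -/
  small : ¬ 2 ^ 20 ∣ Nat.card ↥(Subgroup.centralizer (E : Set G))
  /-- The order of the centralizer of `z`. -/
  cardH : Nat.card ↥(Subgroup.centralizer ({z} : Set G)) ∣ 2 ^ 21 * 3 ^ 3 * 5 * 7 * 11
  three : 3 ∣ Nat.card ↥(Subgroup.centralizer (E : Set G))

namespace Pentad

variable {G : Type u} [Group G] (d : Pentad G)

/-- The 2-local: generated by the parts of the 2-cores centralizing `E`. -/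
def L : Subgroup G :=
  ⨆ a : {a : G // a ∈ d.E ∧ a ≠ 1},
    Cfsg.twoCoreOfCentralizer (a : G) ⊓ Subgroup.centralizer (d.E : Set G)

end Pentad

end CfsgLib.J4Pentad
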