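import Cfsg.Agent.J4Five49.Duad
import Cfsg.Agent.J4Five49.Second
import Cfsg.Agent.J4Type67.OfType

/-!
Facts inside the centraliser of the involution of a group of Janko-four type, for an element of
order five and an elementary subgroup of order eight centralised by it.
-/

set_option autoImplicit false

universe u

namespace CfsgLib.J4Pentad

open CfsgLib.J4Type67

section HLevel

variable {H : Type u} [Group H] [Finite H] (d : Setup H)

include d in
theorem setup_card : Nat.card H = 887040 * (3 * 2 ^ 13) := by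
  rw [Subgroup.card_eq_card_quotient_mul_card_subgroup d.π.ker,
    Nat.card_congr (QuotientGroup.quotientKerEquivOfSurjective d.π d.surj).toEquiv,
    Setup.card_mulAut, d.cardKer]

include d in
theorem setup_factorization_five : (Nat.card H).factorization 5 = 1 := by
  rw [setup_card d, show 887040 * (3 * 2 ^ 13) = 5 * 4359979008 + 0 by norm_num, add_zero,
    Nat.factorization_mul (by norm_num) (by norm_num), Finsupp.add_apply,
    Nat.Prime.factorization_self (by norm_num : Nat.Prime 5),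
    Nat.factorization_eq_zero_of_not_dvd (by norm_num : ¬(5 ∣ 4359979008))]

include d in
theorem exists_conj_five {q q' : H} (hq : orderOf q = 5) (hq' : orderOf q' = 5) :
    ∃ h : H, ∀ x, Commute x q' → Commute (h * x * h⁻¹) q := by
  have : Fact (Nat.Prime 5) := ⟨by norm_num⟩
  have hc : ∀ {r : H}, orderOf r = 5 →
      Nat.card (Subgroup.zpowers r) = 5 ^ (Nat.card H).factorization 5 := fun hr => by
    rw [Nat.card_zpowers, hr, setup_factorization_five d, pow_one]
  obtain ⟨h, hh⟩ := MulAction.exists_smul_eq H (Sylow.ofCard _ (hc hq')) (Sylow.ofCard _ (hc hq))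
  refine ⟨h, fun x hx => ?_⟩
  have hmem : q ∈ ((h • Sylow.ofCard _ (hc hq') : Sylow 5 H) : Subgroup H) := by
    rw [hh]
    exact Subgroup.mem_zpowers q
  rw [Sylow.coe_subgroup_smul] at hmem
  obtain ⟨a, ha, rfl⟩ := hmem
  obtain ⟨i, rfl⟩ := ha
  show Commute (h * x * h⁻¹) (h * q' ^ i * h⁻¹)
  exact (SemiconjBy.map (hx.zpow_right i) (MulAut.conj h))

theorem card_centralizer_conj {G : Type*} [Group G] (h e : G) :
    Nat.card (Subgroup.centralizer ({h * e * h⁻¹} : Set G)) =
      Nat.card (Subgroup.centralizer ({e} : Set G)) := by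
  refine (Nat.card_congr ?_).symm
  exact
    { toFun := fun x => ⟨h * x * h⁻¹, Subgroup.mem_centralizer_singleton_iff.2 <| by
        have := (Subgroup.mem_centralizer_singleton_iff.1 x.2 : (x : G) * e = e * x)
        calc h * x * h⁻¹ * (h * e * h⁻¹) = h * (x * e) * h⁻¹ := by group
          _ = h * (e * x) * h⁻¹ := by rw [this]
          _ = h * e * h⁻¹ * (h * x * h⁻¹) := by group⟩
      invFun := fun x => ⟨h⁻¹ * x * h, Subgroup.mem_centralizer_singleton_iff.2 <| by
        have := (Subgroup.mem_centralizer_singleton_iff.1 x.2 :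
          (x : G) * (h * e * h⁻¹) = h * e * h⁻¹ * x)
        calc h⁻¹ * x * h * e = h⁻¹ * (x * (h * e * h⁻¹)) * h := by group
          _ = h⁻¹ * (h * e * h⁻¹ * x) * h := by rw [this]
          _ = e * (h⁻¹ * x * h) := by group⟩
      left_inv := fun x => Subtype.ext (by simp [mul_assoc])
      right_inv := fun x => Subtype.ext (by simp [mul_assoc]) }

/-- The data carried over to a given element of order five. -/
theorem exists_fixed_at {q : H} (hq : orderOf q = 5) : ∃ e p' y : H,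
    Commute p' q ∧ Commute e q ∧ p' ^ 3 = 1 ∧ p' ≠ 1 ∧ p' ∈ d.π.ker ∧ e ∈ d.E ∧ e * e = 1 ∧
    e ∉ d.Z ∧ (∀ a ∈ d.E, Commute a p' → a = 1 ∨ a = d.z) ∧
    2 ^ 20 ∣ Nat.card (Subgroup.centralizer ({e} : Set H)) ∧
    y * e * y⁻¹ * e⁻¹ ∈ d.Z ∧
    y * (p' * e * p'⁻¹) * y⁻¹ * (p' * e * p'⁻¹)⁻¹ ∈ d.Z ∧ orderOf (d.π y) = 3 := by
  obtain ⟨q₀, e, y, hq₀, hqp, he, hee, heZ, heq, h20, hy1, hy2, hy3⟩ :=
    J4Five49.exists_fixed_data d
  obtain ⟨h, hh⟩ := exists_conj_five d hq hq₀
  have hZ : ∀ {a : H}, a ∈ d.Z → h * a * h⁻¹ ∈ d.Z := fun ha => by rwa [d.z_conj h ha]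
  refine ⟨h * e * h⁻¹, h * d.p * h⁻¹, h * y * h⁻¹, hh _ hqp.symm, hh _ heq, ?_, ?_, ?_,
    d.normalE h e he, ?_, ?_, ?_, ?_, ?_, ?_, ?_⟩
  · rw [conj_pow, d.p3, mul_one, mul_inv_cancel]
  · exact fun e' => d.pne (conj_eq_one_iff.1 e')
  · exact (inferInstance : d.π.ker.Normal).conj_mem _ d.pker h
  · rw [show h * e * h⁻¹ * (h * e * h⁻¹) = h * (e * e) * h⁻¹ by group, hee]; group
  · intro he'
    have := d.z_conj h⁻¹ he'
    rw [show h⁻¹ * (h * e * h⁻¹) * h⁻¹⁻¹ = e by group] at this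
    exact heZ (this ▸ he')
  · intro a ha hc
    have hc' : Commute (h⁻¹ * a * h) d.p := by
      have := SemiconjBy.map hc (MulAut.conj h⁻¹)
      simp only [MulAut.conj_apply, inv_inv] at this
      rwa [show h⁻¹ * (h * d.p * h⁻¹) * h = d.p by group] at this
    have hm : h⁻¹ * a * h ∈ d.Z := d.mem_Z.2 (d.fixE _ (by
      simpa using d.normalE h⁻¹ a ha) hc')
    have := hZ hm
    rw [show h * (h⁻¹ * a * h) * h⁻¹ = a by group] at this
    exact d.mem_Z.1 this
  · rwa [card_centralizer_conj]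
  · rw [show h * y * h⁻¹ * (h * e * h⁻¹) * (h * y * h⁻¹)⁻¹ * (h * e * h⁻¹)⁻¹ =
      h * (y * e * y⁻¹ * e⁻¹) * h⁻¹ by group]
    exact hZ hy1
  · rw [show h * y * h⁻¹ * (h * d.p * h⁻¹ * (h * e * h⁻¹) * (h * d.p * h⁻¹)⁻¹) * (h * y * h⁻¹)⁻¹ *
        (h * d.p * h⁻¹ * (h * e * h⁻¹) * (h * d.p * h⁻¹)⁻¹)⁻¹ =
      h * (y * (d.p * e * d.p⁻¹) * y⁻¹ * (d.p * e * d.p⁻¹)⁻¹) * h⁻¹ by group]
    exact hZ hy2
  · rw [map_mul, map_mul, map_inv, ← MulAut.conj_apply, MulEquiv.orderOf_eq, hy3]

include d in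
/-- The centraliser of an element of order five in the centraliser of the involution. -/
theorem setup_five_cent {q : H} (hq : orderOf q = 5) :
    ¬ 7 ∣ Nat.card (Subgroup.centralizer ({q} : Set H)) ∧
    192 ∣ Nat.card (Subgroup.centralizer ({q} : Set H)) := by
  have : Fact (Nat.Prime 5) := ⟨by norm_num⟩
  have : Fact (Nat.Prime 2) := ⟨Nat.prime_two⟩
  set C := Subgroup.centralizer ({q} : Set H)
  set K := d.π.ker ⊓ C
  have hq5 : q ^ 5 = 1 := hq ▸ pow_orderOf_eq_one q
  obtain ⟨e, p', -, hp'q, heq, hp'3, hp'1, hp'k, he, -, heZ, -⟩ := exists_fixed_at d hq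
  -- the part in the extraspecial group
  have hE : 32 ∣ Nat.card ↥(d.E ⊓ C) := by
    obtain ⟨j, hj⟩ := IsPGroup.iff_card.1 (d.pgroupE.to_le (inf_le_left : d.E ⊓ C ≤ d.E))
    have hmod := J4Five49.modEq_fixed (s := (d.E : Set H)) hq5 fun x hx => d.normalE q x hx
    have hfix : Nat.card {x : H // x ∈ (d.E : Set H) ∧ Commute q x} = 2 ^ j := by
      rw [← hj]
      exact Nat.card_congr (Equiv.subtypeEquivRight fun x => by
        simp [C, Subgroup.mem_inf, Subgroup.mem_centralizer_singleton_iff, commute_iff_eq, eq_comm])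
    rw [hfix, show Nat.card ↥(d.E : Set H) = 2 ^ 13 from d.cardE] at hmod
    have h3 : 2 < 2 ^ j := by
      rw [← hj, ← d.card_Z]
      refine lt_of_le_of_ne (Subgroup.card_le_of_le ?_) fun hc => heZ ?_
      · exact Subgroup.zpowers_le.2 ⟨d.zmem, Subgroup.mem_centralizer_singleton_iff.2 (d.zc q).eq⟩
      · have hZ := Subgroup.eq_of_le_of_card_ge (Subgroup.zpowers_le.2 ⟨d.zmem,
          Subgroup.mem_centralizer_singleton_iff.2 (d.zc q).eq⟩ : d.Z ≤ d.E ⊓ C) hc.symm.le
        show e ∈ Subgroup.zpowers d.z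
        rw [hZ]; exact ⟨he, Subgroup.mem_centralizer_singleton_iff.2 heq.eq⟩
    rw [hj, show 32 = 2 ^ 5 by norm_num]
    refine Nat.pow_dvd_pow 2 ?_
    by_contra hlt
    interval_cases j <;> simp_all [Nat.ModEq]
  have hK3 : 3 ∣ Nat.card K := by
    have : Fact (Nat.Prime 3) := ⟨Nat.prime_three⟩
    rw [← orderOf_eq_prime hp'3 hp'1]
    exact (Subgroup.orderOf_dvd_natCard K
      ⟨hp'k, Subgroup.mem_centralizer_singleton_iff.2 hp'q.eq⟩)
  have hK : 96 ∣ Nat.card K := by
    rw [show 96 = 32 * 3 by norm_num]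
    exact Nat.Coprime.mul_dvd_of_dvd_of_dvd (by norm_num)
      (hE.trans (Subgroup.card_dvd_of_le (inf_le_inf_right C d.E_le))) hK3
  have hKd : Nat.card K ∣ 3 * 2 ^ 13 := d.cardKer ▸ Subgroup.card_dvd_of_le inf_le_left
  -- the image
  have hq1 : d.π q ≠ 1 := fun h => by
    have := Subgroup.orderOf_dvd_natCard d.π.ker (MonoidHom.mem_ker.2 h)
    rw [hq, d.cardKer] at this
    norm_num at this
  have ha : orderOf (d.π q) = 5 :=
    orderOf_eq_prime (by rw [← map_pow, hq5, map_one]) hq1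
  have hmap : C.map d.π = Subgroup.centralizer ({d.π q} : Set (MulAut M)) := by
    refine le_antisymm ?_ fun b hb => ?_
    · rintro _ ⟨x, hx, rfl⟩
      exact Subgroup.mem_centralizer_singleton_iff.2 (by
        rw [← map_mul, ← map_mul, Subgroup.mem_centralizer_singleton_iff.1 hx])
    obtain ⟨x, rfl⟩ := d.surj b
    have hb' := Subgroup.mem_centralizer_singleton_iff.1 hb
    -- adjust the lift
    let L := (Subgroup.zpowers q ⊔ d.π.ker)
    have hqL : q ∈ L := Subgroup.mem_sup_left (Subgroup.mem_zpowers q)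
    have hxqL : x * q * x⁻¹ ∈ L := by
      have hk : x * q * x⁻¹ * q⁻¹ ∈ d.π.ker := by
        rw [MonoidHom.mem_ker, map_mul, map_mul, map_mul, map_inv, map_inv, hb', mul_inv_cancel_right,
          mul_inv_cancel]
      have := L.mul_mem (Subgroup.mem_sup_right hk) hqL
      rwa [inv_mul_cancel_right] at this
    have hfac : (Nat.card L).factorization 5 = 1 := by
      refine le_antisymm ?_ ?_
      · rw [← setup_factorization_five d]
        exact (Nat.factorization_le_iff_dvd Nat.card_pos.ne' Nat.card_pos.ne').2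
          (Subgroup.card_subgroup_dvd_card L) 5
      · refine (Nat.Prime.dvd_iff_one_le_factorization (by norm_num) Nat.card_pos.ne').1 ?_
        rw [← hq]
        exact Subgroup.orderOf_dvd_natCard L hqL
    have hc : ∀ r : L, orderOf (r : H) = 5 →
        Nat.card (Subgroup.zpowers r) = 5 ^ (Nat.card L).factorization 5 := fun r hr => by
      rw [Nat.card_zpowers, ← Subgroup.orderOf_coe, hr, hfac, pow_one]
    let r₁ : L := ⟨x * q * x⁻¹, hxqL⟩
    let r₂ : L := ⟨q, hqL⟩
    have hr₁ : orderOf (r₁ : H) = 5 := by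
      show orderOf (x * q * x⁻¹) = 5
      rw [← MulAut.conj_apply, MulEquiv.orderOf_eq, hq]
    obtain ⟨n, hn⟩ := MulAction.exists_smul_eq L (Sylow.ofCard _ (hc r₁ hr₁))
      (Sylow.ofCard _ (hc r₂ hq))
    obtain ⟨m, hm, k, hk, hmk⟩ : ∃ m ∈ Subgroup.zpowers q, ∃ k ∈ d.π.ker, m * k = (n : H) := by
      have := n.2
      rwa [← SetLike.mem_coe, Subgroup.mul_normal] at this
    have hmem : (n * r₁ * n⁻¹ : L) ∈ ((Sylow.ofCard _ (hc r₂ hq) : Sylow 5 L) : Subgroup L) := by
      rw [← hn, Sylow.coe_subgroup_smul]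
      exact ⟨r₁, Subgroup.mem_zpowers r₁, rfl⟩
    obtain ⟨i, hi⟩ := Subgroup.mem_zpowers_iff.1 hmem
    have hi' : q ^ i = (n : H) * (x * q * x⁻¹) * (n : H)⁻¹ := congrArg Subtype.val hi
    rw [← hmk] at hi'
    obtain ⟨l, rfl⟩ := hm
    have hi'' : q ^ i = k * (x * q * x⁻¹) * k⁻¹ := by
      calc q ^ i = (q ^ l)⁻¹ * q ^ i * q ^ l := by group
        _ = _ := by rw [hi']; group
    refine ⟨k * x, Subgroup.mem_centralizer_singleton_iff.2 ?_, by
      rw [map_mul, MonoidHom.mem_ker.1 hk, one_mul]⟩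
    have hπi : d.π q ^ i = d.π q := by
      rw [← map_zpow, hi'']
      simp only [map_mul, map_inv, MonoidHom.mem_ker.1 hk, inv_one, one_mul, mul_one]
      rw [hb', mul_inv_cancel_right]
    have hi1 : q ^ i = q := by
      have hdvd : (5 : ℤ) ∣ i - 1 := by
        rw [show (5 : ℤ) = ((orderOf (d.π q) : ℕ) : ℤ) by rw [ha]; rfl,
          orderOf_dvd_iff_zpow_eq_one, zpow_sub, hπi, zpow_one, mul_inv_cancel]
      rw [show (5 : ℤ) = ((orderOf q : ℕ) : ℤ) by rw [hq]; rfl, orderOf_dvd_iff_zpow_eq_one,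
        zpow_sub, zpow_one, mul_inv_eq_one] at hdvd
      exact hdvd
    rw [hi1] at hi''
    calc k * x * q = k * (x * q * x⁻¹) * k⁻¹ * (k * x) := by group
      _ = q * (k * x) := by rw [← hi'']
  have hcard : Nat.card C = Nat.card K * 10 := by
    let f : C →* MulAut M := d.π.comp C.subtype
    have h := Subgroup.card_mul_index f.ker
    have hr : f.range = C.map d.π := by
      rw [MonoidHom.range_eq_map, ← Subgroup.map_map, ← MonoidHom.range_eq_map,
        Subgroup.range_subtype]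
    have hk : Nat.card f.ker = Nat.card K := Nat.card_congr
      { toFun := fun x => ⟨x.1.1, x.2, x.1.2⟩
        invFun := fun x => ⟨⟨x.1, x.2.2⟩, x.2.1⟩
        left_inv := fun _ => rfl
        right_inv := fun _ => rfl }
    rw [Subgroup.index_ker, hr, hk, hmap, J4Five49.card_aut_cent ha] at h
    exact h.symm
  rw [hcard]
  refine ⟨fun h7 => ?_, (Dvd.intro _ (by norm_num : 192 * 5 = 96 * 10)).trans
    (Nat.mul_dvd_mul_right hK 10)⟩
  have := h7.trans (Nat.mul_dvd_mul_right hKd 10)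
  norm_num at this

include d in
/-- The facts on an elementary subgroup of order eight centralised by the element of order five. -/
theorem setup_eight {q : H} (hq : orderOf q = 5) {U : Subgroup H} (hU : ∀ a ∈ U, a * a = 1)
    (h8 : Nat.card U = 8) (hz : d.z ∈ U) (hn : ∀ g, Commute g q → ∀ a ∈ U, g * a * g⁻¹ ∈ U)
    (hmax : ∀ u : H, Commute u q → u * u = 1 → u ≠ 1 →
      2 ^ 20 ∣ Nat.card (Subgroup.centralizer ({u} : Set H)) → u ∈ U) :
    U ≤ d.E ∧ 2 ^ 11 ≤ Nat.card ↥(d.E ⊓ Subgroup.centralizer (U : Set H)) ∧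
    (∃ a ∈ d.E ⊓ Subgroup.centralizer (U : Set H), ∃ b ∈ d.E ⊓ Subgroup.centralizer (U : Set H),
      a * b ≠ b * a) ∧
    ¬ 2 ^ 20 ∣ Nat.card ↥(Subgroup.centralizer (U : Set H)) ∧
    3 ∣ Nat.card ↥(Subgroup.centralizer (U : Set H)) := by
  classical
  have : Fact (Nat.Prime 2) := ⟨Nat.prime_two⟩
  obtain ⟨e, p', y, hp'q, heq, hp'3, -, -, he, hee, heZ, hfix, h20, hy1, hy2, hy3⟩ :=
    exists_fixed_at d hq
  have heU : e ∈ U := hmax e heq hee (fun h => heZ (h ▸ one_mem _)) h20
  set e₂ := p' * e * p'⁻¹ with he₂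
  have he₂U : e₂ ∈ U := hn p' hp'q e heU
  have he₂E : e₂ ∈ d.E := d.normalE p' e he
  have hee₂ : e₂ ∉ d.Z ∧ e₂ * e⁻¹ ∉ d.Z := by
    constructor
    · intro h
      have := d.z_conj p'⁻¹ h
      rw [show p'⁻¹ * e₂ * p'⁻¹⁻¹ = e by rw [he₂]; group] at this
      exact heZ (this ▸ h)
    · intro h
      -- three steps return
      rcases d.mem_Z.1 h with h' | h'
      · rcases hfix e he (mul_inv_eq_iff_eq_mul.1 (mul_inv_eq_one.1 h')).symm with h'' | h''
        · exact heZ (h'' ▸ one_mem _)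
        · exact heZ (h'' ▸ Subgroup.mem_zpowers _)
      · have e1 : p' * e * p'⁻¹ = d.z * e := mul_inv_eq_iff_eq_mul.1 h'
        have hzp : ∀ v, p' * (d.z * v) * p'⁻¹ = d.z * (p' * v * p'⁻¹) := fun v => by
          rw [← mul_assoc p', ← (d.zc p').eq]; group
        have h3 : p' * (p' * (p' * e * p'⁻¹) * p'⁻¹) * p'⁻¹ = e := by
          rw [show p' * (p' * (p' * e * p'⁻¹) * p'⁻¹) * p'⁻¹ = p' ^ 3 * e * (p' ^ 3)⁻¹ by
            simp only [pow_succ, pow_zero, one_mul, mul_inv_rev, mul_assoc], hp'3]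
          simp
        rw [e1, hzp, e1, ← mul_assoc d.z d.z, d.zz, one_mul, e1] at h3
        exact d.zne (mul_eq_right.1 h3)
  -- a subgroup containing the five elements is everything
  have hgen : ∀ A : Subgroup H, d.z ∈ A → e ∈ A → e₂ ∈ A → U ≤ A := by
    intro A hzA heA he₂A
    have hle : U ⊓ A = U := by
      refine Subgroup.eq_of_le_of_card_ge inf_le_left ?_
      have hdvd : Nat.card ↥(U ⊓ A) ∣ 2 ^ 3 := by
        rw [show (2 : ℕ) ^ 3 = 8 by norm_num, ← h8]
        exact Subgroup.card_dvd_of_le inf_le_left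
      have h5 : 5 ≤ Nat.card ↥(U ⊓ A) := by
        let F : Finset H := {1, d.z, e, d.z * e, e₂}
        have hF : F.card = 5 := by
          have hZ : ∀ {v : H}, v ∈ d.Z → e ≠ v ∧ d.z * e ≠ v ∧ e₂ ≠ v := fun {v} hv =>
            ⟨fun h => heZ (h ▸ hv), fun h => heZ (by
              have := mul_mem (inv_mem (Subgroup.mem_zpowers d.z)) (h.symm ▸ hv : d.z * e ∈ d.Z)
              rwa [inv_mul_cancel_left] at this), fun h => hee₂.1 (h ▸ hv)⟩
          obtain ⟨a1, a2, a3⟩ := hZ (one_mem _)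
          obtain ⟨b1, b2, b3⟩ := hZ (Subgroup.mem_zpowers d.z)
          have c1 : e ≠ d.z * e := fun h => d.zne (right_eq_mul.1 h)
          have c2 : e ≠ e₂ := fun h => hee₂.2 (by rw [← h, mul_inv_cancel]; exact one_mem _)
          have c3 : d.z * e ≠ e₂ := fun h => hee₂.2 (by
            rw [← h, mul_inv_cancel_right]; exact Subgroup.mem_zpowers _)
          simp only [F]
          repeat rw [Finset.card_insert_of_notMem]
          · simp
          all_goals simp only [Finset.mem_insert, Finset.mem_singleton, not_or]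
          all_goals first
            | exact c3
            | exact ⟨c1, c2⟩
            | exact ⟨b1.symm, b2.symm, b3.symm⟩
            | exact ⟨d.zne.symm, a1.symm, a2.symm, a3.symm⟩
        have hsub : (F : Set H) ⊆ ↑(U ⊓ A) := by
          intro v hv
          simp only [F, Finset.coe_insert, Finset.coe_singleton, Set.mem_insert_iff,
            Set.mem_singleton_iff] at hv
          rcases hv with rfl | rfl | rfl | rfl | rfl
          exacts [one_mem _, ⟨hz, hzA⟩, ⟨heU, heA⟩, ⟨mul_mem hz heU, mul_mem hzA heA⟩, ⟨he₂U, he₂A⟩]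
        have := Set.ncard_le_ncard hsub (Set.toFinite _)
        rw [Set.ncard_coe_finset, hF, ← Nat.card_coe_set_eq] at this
        exact this
      obtain ⟨j, hj, hj'⟩ := (Nat.dvd_prime_pow Nat.prime_two).1 hdvd
      rw [h8, hj']
      rw [hj'] at h5
      interval_cases j <;> simp_all
    exact hle ▸ inf_le_right
  have hUE : U ≤ d.E := hgen d.E d.zmem he he₂E
  have hcard11 : Nat.card ↥(d.E ⊓ Subgroup.centralizer (U : Set H)) = 2 ^ 11 := by
    have := d.card_centralizer_eq hUE hz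
    rw [h8] at this
    omega
  refine ⟨hUE, hcard11.ge, ?_, ?_, ?_⟩
  · by_contra hcomm
    push Not at hcomm
    have := d.card_le_of_commute inf_le_left hcomm
    omega
  · intro hdvd
    obtain ⟨T₀, hT₀⟩ := Sylow.exists_subgroup_card_pow_prime 2 hdvd
    let T₀' : Subgroup H := T₀.map (Subgroup.centralizer (U : Set H)).subtype
    have hT₀' : Nat.card T₀' = 2 ^ 20 := by
      rw [Subgroup.card_map_of_injective Subtype.val_injective, hT₀]
    obtain ⟨T, hT⟩ := (IsPGroup.of_card hT₀').exists_le_sylow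
    have h := mul_card_le hT (d.E_le_sylow T)
    have hle : T₀' ⊓ d.E ≤ d.E ⊓ Subgroup.centralizer (U : Set H) :=
      le_inf inf_le_right (inf_le_left.trans (Subgroup.map_subtype_le _))
    have h' := Nat.mul_le_mul_right (Nat.card (T : Subgroup H)) (Subgroup.card_le_of_le hle)
    rw [hT₀', d.cardE] at h
    rw [hcard11, J4Five49.card_sylow_two d T] at h'
    rw [J4Five49.card_sylow_two d T] at h
    have := h.trans h'
    norm_num at this
  · -- the square of `y` centralises `U`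
    let A : Subgroup H :=
      { carrier := {v | y * v * y⁻¹ * v⁻¹ ∈ d.Z ∧ v ∈ d.E}
        one_mem' := ⟨by simp, one_mem _⟩
        mul_mem' := fun {a b} ha hb => ⟨by
          rw [show y * (a * b) * y⁻¹ * (a * b)⁻¹ =
            (y * a * y⁻¹ * a⁻¹) * (a * (y * b * y⁻¹ * b⁻¹) * a⁻¹) by group, d.z_conj a hb.1]
          exact mul_mem ha.1 hb.1, mul_mem ha.2 hb.2⟩
        inv_mem' := fun {a} ha => ⟨by
          rw [show y * a⁻¹ * y⁻¹ * a⁻¹⁻¹ = a⁻¹ * (y * a * y⁻¹ * a⁻¹)⁻¹ * a⁻¹⁻¹ by group,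
            d.z_conj _ (inv_mem ha.1)]
          exact inv_mem ha.1, inv_mem ha.2⟩ }
    have hUA : U ≤ A := hgen A
      ⟨by rw [d.z_conj y (Subgroup.mem_zpowers _), mul_inv_cancel]; exact one_mem _, d.zmem⟩
      ⟨hy1, he⟩ ⟨hy2, he₂E⟩
    have hy2U : y * y ∈ Subgroup.centralizer (U : Set H) := by
      refine Subgroup.mem_centralizer_iff.2 fun v hv => ?_
      have h := (hUA hv).1
      have hv' : y * v * y⁻¹ = (y * v * y⁻¹ * v⁻¹) * v := by group
      rcases d.mem_Z.1 h with h' | h' <;> rw [h'] at hv'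
      · rw [one_mul, mul_inv_eq_iff_eq_mul] at hv'
        exact ((Commute.mul_left hv' hv').eq).symm
      · have hzy : y * (d.z * v) * y⁻¹ = d.z * (y * v * y⁻¹) := by
          rw [← mul_assoc y, ← (d.zc y).eq]; group
        have h2 : y * y * v * (y * y)⁻¹ = v := by
          rw [show y * y * v * (y * y)⁻¹ = y * (y * v * y⁻¹) * y⁻¹ by group, hv', hzy, hv',
            ← mul_assoc, d.zz, one_mul]
        exact (mul_inv_eq_iff_eq_mul.1 h2).symm
    have h3 : orderOf (d.π (y * y)) = 3 := by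
      rw [map_mul, ← pow_two, orderOf_pow' _ (by norm_num), hy3]
      norm_num
    exact (h3 ▸ orderOf_map_dvd d.π (y * y)).trans (Subgroup.orderOf_dvd_natCard _ hy2U)

end HLevel

variable {G : Type u} [Group G] [Finite G]

theorem card_H_dvd {z : G} {P : Subgroup G} (hJ : Cfsg.IsOfJankoFourTypeWith z P) :
    Nat.card ↥(Subgroup.centralizer ({z} : Set G)) ∣ 2 ^ 21 * 3 ^ 3 * 5 * 7 * 11 := by
  obtain ⟨d, -⟩ := exists_setup hJ
  rw [setup_card d]
  norm_num

omit [Finite G] in
theorem mem_centralizer_val {C : Subgroup G} {a : C} {x : C} :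
    x ∈ Subgroup.centralizer ({a} : Set C) ↔ Commute (x : G) (a : G) := by
  rw [Subgroup.mem_centralizer_singleton_iff, commute_iff_eq, Subtype.ext_iff]
  rfl

theorem seven_notDvd_five_cent {z : G} {P : Subgroup G} (hJ : Cfsg.IsOfJankoFourTypeWith z P)
    {q : G} (hq : orderOf q = 5) (hqz : Commute q z) :
    ¬ 7 ∣ Nat.card ↥(Subgroup.centralizer ({q} : Set G) ⊓ Subgroup.centralizer ({z} : Set G)) ∧
    192 ∣ Nat.card ↥(Subgroup.centralizer ({q} : Set G) ⊓ Subgroup.centralizer ({z} : Set G)) := by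
  obtain ⟨d, -⟩ := exists_setup hJ
  let q' : ↥(Subgroup.centralizer ({z} : Set G)) :=
    ⟨q, Subgroup.mem_centralizer_singleton_iff.2 hqz.eq⟩
  have hq' : orderOf q' = 5 := by rw [← Subgroup.orderOf_coe]; exact hq
  have he : Nat.card (Subgroup.centralizer ({q'} : Set _)) =
      Nat.card ↥(Subgroup.centralizer ({q} : Set G) ⊓ Subgroup.centralizer ({z} : Set G)) :=
    Nat.card_congr
      { toFun := fun x => ⟨x.1.1, Subgroup.mem_centralizer_singleton_iff.2
          (mem_centralizer_val.1 x.2).eq, x.1.2⟩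
        invFun := fun x => ⟨⟨x.1, x.2.2⟩, mem_centralizer_val.2
          (Subgroup.mem_centralizer_singleton_iff.1 x.2.1)⟩
        left_inv := fun _ => rfl
        right_inv := fun _ => rfl }
  rw [← he]
  exact setup_five_cent d hq'

theorem eight_facts {z : G} {P : Subgroup G} (hJ : Cfsg.IsOfJankoFourTypeWith z P) {q : G}
    (hq : orderOf q = 5) (hqz : Commute q z) {E : Subgroup G} (hE : ∀ a ∈ E, a * a = 1) (h8 : Nat.card E = 8)
    (hz : z ∈ E) (hEq : E ≤ Subgroup.centralizer ({q} : Set G))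
    (hn : ∀ g, Commute g q → Commute g z → ∀ a ∈ E, g * a * g⁻¹ ∈ E) (hcls : ∀ a ∈ E, a ≠ 1 → IsConj z a)
    (hmax : ∀ u : G, Commute u q → Commute u z → IsConj z u → u ∈ E)
    (hsec : ∀ t : G, orderOf t = 2 → ¬ IsConj z t → ¬ 2 ^ 20 ∣ Nat.card (Subgroup.centralizer ({t} : Set G))) :
    E ≤ Cfsg.twoCoreOfCentralizer z ∧
    2 ^ 11 ≤ Nat.card ↥(Cfsg.twoCoreOfCentralizer z ⊓ Subgroup.centralizer (E : Set G)) ∧
    (∃ a ∈ Cfsg.twoCoreOfCentralizer z ⊓ Subgroup.centralizer (E : Set G),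
      ∃ b ∈ Cfsg.twoCoreOfCentralizer z ⊓ Subgroup.centralizer (E : Set G), a * b ≠ b * a) ∧
    ¬ 2 ^ 20 ∣ Nat.card ↥(Subgroup.centralizer (E : Set G)) ∧
    3 ∣ Nat.card ↥(Subgroup.centralizer (E : Set G)) := by
  have : Fact (Nat.Prime 2) := ⟨Nat.prime_two⟩
  have hset := exists_setup hJ
  set C := Subgroup.centralizer ({z} : Set G)
  obtain ⟨d, hdE, hdz, -⟩ := hset
  have hEC : E ≤ C := fun a ha => Subgroup.mem_centralizer_singleton_iff.2
    (comm_of_sq hE ha hz)
  have hcC : Subgroup.centralizer (E : Set G) ≤ C := fun x hx =>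
    Subgroup.mem_centralizer_singleton_iff.2 (Subgroup.mem_centralizer_iff.1 hx z hz).symm
  let q' : C := ⟨q, Subgroup.mem_centralizer_singleton_iff.2 hqz.eq⟩
  have hq' : orderOf q' = 5 := by rw [← Subgroup.orderOf_coe]; exact hq
  have h := setup_eight d hq' (U := E.subgroupOf C) (fun a ha => Subtype.ext (hE a ha))
    (by rw [Nat.card_congr (Subgroup.subgroupOfEquivOfLe hEC).toEquiv, h8])
    (by rw [Subgroup.mem_subgroupOf, hdz]; exact hz)
    (fun g hg a ha => hn g (congrArg Subtype.val hg.eq)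
      (Subgroup.mem_centralizer_singleton_iff.1 g.2) a ha)
    (fun u huq huu hu1 h20 => hmax u (congrArg Subtype.val huq.eq)
      (Subgroup.mem_centralizer_singleton_iff.1 u.2) (by
        by_contra hnc
        refine hsec (u : G) (orderOf_eq_prime (by rw [pow_two]; exact congrArg Subtype.val huu)
          fun h => hu1 (Subtype.ext h)) hnc (h20.trans ?_)
        rw [← Subgroup.card_map_of_injective C.subtype_injective]
        refine Subgroup.card_dvd_of_le ?_
        rintro _ ⟨x, hx, rfl⟩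
        exact Subgroup.mem_centralizer_singleton_iff.2 (mem_centralizer_val.1 hx).eq))
  obtain ⟨h1, h2, ⟨a, ha, b, hb, hab⟩, h4, h5⟩ := h
  have hcard : Nat.card ↥(Subgroup.centralizer ((E.subgroupOf C : Subgroup C) : Set C)) =
      Nat.card ↥(Subgroup.centralizer (E : Set G)) :=
    Nat.card_congr
      { toFun := fun x => ⟨x.1.1, Subgroup.mem_centralizer_iff.2 fun v hv =>
          congrArg Subtype.val (Subgroup.mem_centralizer_iff.1 x.2 ⟨v, hEC hv⟩ hv)⟩
        invFun := fun x => ⟨⟨x.1, hcC x.2⟩, Subgroup.mem_centralizer_iff.2 fun v hv =>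
          Subtype.ext (Subgroup.mem_centralizer_iff.1 x.2 v hv)⟩
        left_inv := fun _ => rfl
        right_inv := fun _ => rfl }
  have hmem : ∀ x : C, x ∈ d.E ⊓ Subgroup.centralizer ((E.subgroupOf C : Subgroup C) : Set C) →
      (x : G) ∈ Cfsg.twoCoreOfCentralizer z ⊓ Subgroup.centralizer (E : Set G) := fun x hx =>
    ⟨mem_twoCore.2 (hdE ▸ hx.1), Subgroup.mem_centralizer_iff.2 fun v hv =>
      congrArg Subtype.val (Subgroup.mem_centralizer_iff.1 hx.2 ⟨v, hEC hv⟩ hv)⟩
  refine ⟨fun x hx => ?_, h2.trans ?_, ⟨a, hmem a ha, b, hmem b hb, fun h => hab (Subtype.ext h)⟩,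
    hcard ▸ h4, hcard ▸ h5⟩
  · exact mem_twoCore (x := ⟨x, hEC hx⟩).2 (hdE ▸ h1 (show (⟨x, hEC hx⟩ : C) ∈ E.subgroupOf C from hx))
  · rw [← Subgroup.card_map_of_injective C.subtype_injective]
    refine Subgroup.card_le_of_le ?_
    rintro _ ⟨x, hx, rfl⟩
    exact hmem x hx

end CfsgLib.J4Pentad
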