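/-
Facts on an extension of an elementary abelian group of order eight by `L₃(2)` and on elements of
prime order, used to build the configuration of pentad type.
-/
import Cfsg.Agent.SmallRadical.Modules

set_option autoImplicit false

universe u

namespace CfsgLib.J4Pentad

open Subgroup CfsgLib.SmallRadical

theorem sl32_cent : ∀ u : SL32, u * u = 1 → u ≠ 1 →
    (Finset.univ.filter fun g : SL32 => g * u = u * g).card = 8 := by
  decide +kernel

theorem natCard_cent_sl32 {u : SL32} (h2 : u * u = 1) (h1 : u ≠ 1) :
    Nat.card (centralizer ({u} : Set SL32)) = 8 := by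
  classical
  rw [← sl32_cent u h2 h1, Nat.card_eq_fintype_card, ← Fintype.card_subtype]
  exact Fintype.card_congr (Equiv.subtypeEquivRight fun g => mem_centralizer_singleton_iff)

/-- A subgroup commuting with `Q` normalizes it. -/
theorem le_normalizer_of_commute {G : Type u} [Group G] {Q K : Subgroup G}
    (h : ∀ a ∈ Q, ∀ b ∈ K, a * b = b * a) {x : G} (hx : x ∈ K) :
    x ∈ normalizer (Q : Set G) := by
  refine mem_normalizer_iff.2 fun a => ⟨fun ha => ?_, fun ha => ?_⟩
  · rwa [← h a ha x hx, mul_inv_cancel_right]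
  · have h1 : x⁻¹ * (x * a * x⁻¹) * x = x * a * x⁻¹ := by
      rw [mul_assoc, h _ ha x hx, inv_mul_cancel_left]
    rw [← h1] at ha
    simpa [mul_assoc] using ha

/-- The order of the product of two subgroups, one normalizing the other. -/
theorem card_sup_mul_card_inf_of_le_normalizer {G : Type u} [Group G] [Finite G] {H Q : Subgroup G}
    (h : H ≤ normalizer (Q : Set G)) :
    Nat.card ↥(H ⊔ Q) * Nat.card ↥(H ⊓ Q) = Nat.card H * Nat.card Q := by
  let K : Subgroup G := H ⊔ Q
  have hK : K ≤ normalizer (Q : Set G) := sup_le h le_normalizer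
  haveI : (Q.subgroupOf K).Normal := normal_subgroupOf_of_le_normalizer hK
  have h1 : Q.relIndex K * Nat.card Q = Nat.card K := by
    rw [mul_comm, ← card_mul_index (Q.subgroupOf K),
      Nat.card_congr (subgroupOfEquivOfLe (le_sup_right : Q ≤ K)).toEquiv]
    rfl
  have h2 : Q.relIndex H * Nat.card ↥(H ⊓ Q) = Nat.card H := by
    rw [mul_comm, ← card_mul_index (Q.subgroupOf H), inf_comm,
      ← Nat.card_congr (subgroupOfEquivOfLe (inf_le_right : Q ⊓ H ≤ H)).toEquiv,
      inf_subgroupOf_right]
    rfl
  have h3 : Q.relIndex K = Q.relIndex H := by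
    have h4 := relIndex_sup_right (H := H.subgroupOf K) (K := Q.subgroupOf K)
    rwa [← subgroupOf_sup le_sup_left le_sup_right, relIndex_subgroupOf le_rfl,
      relIndex_subgroupOf le_sup_left] at h4
  show Nat.card K * _ = _
  rw [← h1, ← h2, h3]
  ring

variable {X : Type u} [Group X] [Finite X] {E : Subgroup X} [E.Normal]
  (e : X ⧸ E ≃* SL32) (hE8 : Nat.card E = 8)

include hE8

theorem card_eq (e : X ⧸ E ≃* SL32) : Nat.card X = 1344 := by
  rw [card_eq_card_quotient_mul_card_subgroup E, Nat.card_congr e.toEquiv, card_sl32, hE8]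

include e

theorem card_centralizer_le {u : X} (h2 : u * u = 1) (hu : u ∉ E) :
    Nat.card (centralizer ({u} : Set X)) ≤ 64 := by
  let f : X →* SL32 := e.toMonoidHom.comp (QuotientGroup.mk' E)
  let C := centralizer ({u} : Set X)
  let g : C →* SL32 := f.comp C.subtype
  have hf1 : f u ≠ 1 := fun h => hu ((QuotientGroup.eq_one_iff u).1 (e.injective (h.trans (map_one e).symm)))
  have hf2 : f u * f u = 1 := by rw [← map_mul, h2, map_one]
  have hr : g.range ≤ centralizer ({f u} : Set SL32) := by
    rintro _ ⟨c, rfl⟩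
    rw [mem_centralizer_singleton_iff]
    show f c * f u = f u * f c
    rw [← map_mul, ← map_mul, mem_centralizer_singleton_iff.1 c.2]
  have hk : g.ker ≤ E.subgroupOf C := fun c hc => mem_subgroupOf.2
    ((QuotientGroup.eq_one_iff (c : X)).1 (e.injective ((hc : f c = 1).trans (map_one e).symm)))
  have hk8 : Nat.card g.ker ≤ 8 := by
    refine (card_le_of_le hk).trans ?_
    rw [← hE8]
    exact Nat.card_le_card_of_injective (fun c => (⟨((c : C) : X), mem_subgroupOf.1 c.2⟩ : E))
      fun a b h => Subtype.ext (Subtype.ext (congrArg (fun y : E => (y : X)) h))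
  have hr8 : Nat.card g.range ≤ 8 := (card_le_of_le hr).trans (natCard_cent_sl32 hf2 hf1).le
  have hmul : Nat.card C = Nat.card g.ker * Nat.card g.range := by
    rw [← card_mul_index g.ker, index_ker]
  show Nat.card C ≤ 64
  rw [hmul]
  exact Nat.mul_le_mul hk8 hr8

theorem mem_of_dvd {u : X} (h2 : u * u = 1) (hd : 192 ∣ Nat.card (centralizer ({u} : Set X))) :
    u ∈ E := by
  by_contra hu
  have h := card_centralizer_le e hE8 h2 hu
  have := Nat.le_of_dvd Nat.card_pos hd
  omega

/-- A subgroup of order eight normal in `X` is `E`. -/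
theorem eq_of_normal_eight {F : Subgroup X} [F.Normal] (hF : Nat.card F = 8) : F = E := by
  haveI := sl32_simple
  let f : X →* SL32 := e.toMonoidHom.comp (QuotientGroup.mk' E)
  have hs : Function.Surjective f := e.surjective.comp (QuotientGroup.mk'_surjective E)
  haveI : (F.map f).Normal := Subgroup.Normal.map inferInstance f hs
  rcases (inferInstance : (F.map f).Normal).eq_bot_or_eq_top with h | h
  · refine eq_of_le_of_card_ge (fun x hx => ?_) (by rw [hF, hE8])
    have : f x = 1 := (mem_bot).1 (h ▸ mem_map_of_mem f hx)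
    exact (QuotientGroup.eq_one_iff x).1 (e.injective (this.trans (map_one e).symm))
  · exfalso
    have h1 := card_dvd_of_surjective (f.subgroupMap F) (f.subgroupMap_surjective F)
    rw [h, card_top, card_sl32, hF] at h1
    norm_num at h1

/-- `E` is self-centralizing unless central. -/
theorem centralizer_eq (hab : ∀ a ∈ E, ∀ b ∈ E, a * b = b * a) {a : X} (ha : a ∈ E)
    (hna : centralizer ({a} : Set X) ≠ ⊤) : centralizer (E : Set X) = E := by
  haveI := sl32_simple
  let f : X →* SL32 := e.toMonoidHom.comp (QuotientGroup.mk' E)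
  have hs : Function.Surjective f := e.surjective.comp (QuotientGroup.mk'_surjective E)
  have hle : E ≤ centralizer (E : Set X) := fun x hx =>
    mem_centralizer_iff.2 fun y hy => hab y hy x hx
  haveI : (centralizer (E : Set X)).Normal := Subgroup.normal_centralizer
  haveI : ((centralizer (E : Set X)).map f).Normal := Subgroup.Normal.map inferInstance f hs
  rcases (inferInstance : ((centralizer (E : Set X)).map f).Normal).eq_bot_or_eq_top with h | h
  · refine le_antisymm (fun x hx => ?_) hle
    have : f x = 1 := (mem_bot).1 (h ▸ mem_map_of_mem f hx)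
    exact (QuotientGroup.eq_one_iff x).1 (e.injective (this.trans (map_one e).symm))
  · refine absurd (eq_top_iff.2 fun x _ => ?_) hna
    obtain ⟨c, hc, he⟩ := (h ▸ mem_top (f x) : f x ∈ (centralizer (E : Set X)).map f)
    have hx : c⁻¹ * x ∈ E :=
      (QuotientGroup.eq_one_iff _).1 (e.injective (show f (c⁻¹ * x) = e 1 by
        rw [map_mul, map_inv, he, inv_mul_cancel, map_one]))
    have : x ∈ centralizer (E : Set X) := by
      have := mul_mem hc (hle hx)
      rwa [mul_inv_cancel_left] at this
    exact mem_centralizer_singleton_iff.2 (mem_centralizer_iff.1 this a ha).symm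

omit e in
/-- An element of `E` whose centralizer has order prime to seven is conjugate to all of them. -/
theorem exists_conj (e : X ⧸ E ≃* SL32) {a b : X} (ha : a ∈ E) (ha1 : a ≠ 1) (hb : b ∈ E)
    (hb1 : b ≠ 1) (h7 : ¬ 7 ∣ Nat.card (centralizer ({a} : Set X))) :
    ∃ g : X, g * a * g⁻¹ = b := by
  classical
  have hidx : 7 ∣ (centralizer ({a} : Set X)).index := by
    have h := card_mul_index (centralizer ({a} : Set X))
    rw [card_eq hE8 e] at h
    have h' : 7 ∣ Nat.card (centralizer ({a} : Set X)) * (centralizer ({a} : Set X)).index := by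
      rw [h]; norm_num
    exact ((Nat.Prime.dvd_mul (by norm_num)).1 h').resolve_left h7
  let o : Set X := {y | ∃ g : X, g * a * g⁻¹ = y}
  have ho : (centralizer ({a} : Set X)).index = o.ncard := by
    rw [centralizer_eq_comap_stabilizer]
    erw [index_comap_of_surjective (f := ConjAct.toConjAct.toMonoidHom) _
      ConjAct.toConjAct.surjective, MulAction.index_stabilizer]
    congr 1
  have hsub : o ⊆ (E : Set X) \ {1} := by
    rintro _ ⟨g, rfl⟩
    exact ⟨(inferInstance : E.Normal).conj_mem a ha g, fun h => ha1 (conj_eq_one_iff.1 h)⟩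
  have h7' : ((E : Set X) \ {1}).ncard = 7 := by
    rw [Set.ncard_sdiff_singleton_of_mem E.one_mem, ← Nat.card_coe_set_eq]
    show Nat.card E - 1 = 7
    rw [hE8]
  have hne : 0 < o.ncard :=
    (Set.ncard_pos (Set.toFinite _)).2 ⟨a, 1, by group⟩
  have hle := Set.ncard_le_ncard hsub (Set.toFinite _)
  rw [ho] at hidx
  have := Nat.le_of_dvd hne hidx
  have heq := Set.eq_of_subset_of_ncard_le hsub (by omega) (Set.toFinite _)
  exact (heq ▸ (⟨hb, hb1⟩ : b ∈ (E : Set X) \ {1}) : b ∈ o)

end CfsgLib.J4Pentad
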