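/-
The configuration of pentad type in a group of Janko-four type, built from the conclusions on the
centralizers of the elements of order five and seven.
-/
import Cfsg.Agent.J4Pentad49.Basic
import Cfsg.Agent.J4Pentad49.Tools
import Cfsg.Agent.J4Pentad49.Setup
import Cfsg.Agent.Jf18.Basic
import Cfsg.Agent.J4Five49.Second
import Cfsg.Prelude.Def_Transfer

set_option autoImplicit false

universe u

namespace CfsgLib.J4Pentad

open Subgroup

/-- The conclusion on the elements of order five commuting with `z` (as in S5572). -/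
def FiveHyp {G : Type u} [Group G] (z : G) : Prop :=
  ∀ Q : Subgroup G, Nat.card ↥Q = 5 → Q ≤ Subgroup.centralizer ({z} : Set G) →
    ¬ (25 ∣ Nat.card G) ∧
    (∃ J : Subgroup G, Cfsg.IsInternalDirectProduct Q J (Subgroup.centralizer (Q : Set G)) ∧
      ∃ (E : Subgroup ↥J) (_ : E.Normal), Cfsg.IsElementaryAbelian 2 E ∧ Nat.card ↥E = 8 ∧
        Nonempty (↥J ⧸ E ≃* Matrix.SpecialLinearGroup (Fin 3) (ZMod 2)) ∧
        ∀ K : Subgroup ↥J, ¬ E.IsComplement' K) ∧
    (∃ R : Subgroup G, Q ≤ R ∧ R ≤ Subgroup.normalizer (Q : Set G) ∧ Nat.card ↥R = 20 ∧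
      R ⊓ Subgroup.centralizer (Q : Set G) = Q) ∧
    Nat.card ↥(Subgroup.normalizer (Q : Set G)) = 2 ^ 8 * 3 * 5 * 7

/-- The conclusion on the elements of order seven commuting with `z` (as in S5573). -/
def SevenHyp {G : Type u} [Group G] (z : G) : Prop :=
  ∀ S : Subgroup G, Nat.card ↥S = 7 → S ≤ Subgroup.centralizer ({z} : Set G) →
    ¬ (49 ∣ Nat.card G) ∧
    (∃ I : Subgroup G, Cfsg.IsInternalDirectProduct S I (Subgroup.centralizer (S : Set G)) ∧
      Nonempty (↥I ≃* Equiv.Perm (Fin 5))) ∧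
    Nat.card ↥(Subgroup.normalizer (S : Set G)) = 3 * Nat.card ↥(Subgroup.centralizer (S : Set G)) ∧
    Nat.card ↥(Subgroup.normalizer (S : Set G)) = 2 ^ 3 * 3 ^ 2 * 5 * 7

variable {G : Type u} [Group G] [Finite G]

theorem centralizer_zpowers (g : G) :
    centralizer (zpowers g : Set G) = centralizer ({g} : Set G) := by
  rw [zpowers_eq_closure, centralizer_closure]

theorem centralizer_conj (g s : G) :
    (centralizer ({s} : Set G)).map (MulAut.conj g).toMonoidHom =
      centralizer ({g * s * g⁻¹} : Set G) :=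
  CfsgLib.Jf18.Ctx.centralizer_map (MulAut.conj g) s

/-- Everything needed for the 2-local of pentad type. -/
theorem exists_pentad {z : G} {P : Subgroup G} (hJ : Cfsg.IsOfJankoFourTypeWith z P)
    (h72 : FiveHyp z) (h73 : SevenHyp z) (hS : CfsgLib.J4Five49.SecondHyp z) :
    Nonempty (Pentad G) := by
  classical
  have hz := hJ.1
  have hzz : z * z = 1 := by rw [← pow_two, ← hz]; exact pow_orderOf_eq_one z
  have hz1 : z ≠ 1 := fun h => by rw [h, orderOf_one] at hz; norm_num at hz
  obtain ⟨d, -, hdz, -⟩ := CfsgLib.J4Type67.exists_setup hJ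
  have hdvd : Nat.card (MulAut CfsgLib.J4Type67.M) ∣ Nat.card ↥(centralizer ({z} : Set G)) :=
    card_dvd_of_surjective d.π d.surj
  rw [CfsgLib.J4Type67.Setup.card_mulAut] at hdvd
  haveI : Fact (Nat.Prime 5) := ⟨by norm_num⟩
  haveI : Fact (Nat.Prime 7) := ⟨by norm_num⟩
  -- the element of order five
  obtain ⟨q', hq'⟩ := exists_prime_orderOf_dvd_card' 5
    ((by norm_num : 5 ∣ 887040).trans hdvd)
  set q : G := (q' : G) with hqdef
  have hq : orderOf q = 5 := by rw [hqdef, orderOf_coe, hq']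
  have hqz : Commute q z := mem_centralizer_singleton_iff.1 q'.2
  obtain ⟨h25, ⟨J, hprod, E₀, hE₀n, hel, hE8, ⟨e⟩, hns⟩, -, hN⟩ :=
    h72 (zpowers q) (by rw [Nat.card_zpowers, hq]) (zpowers_le.2 q'.2)
  haveI := hE₀n
  obtain ⟨-, hJC, hcomm, hQJ, hsup⟩ := hprod
  rw [centralizer_zpowers] at hsup hJC
  have hJq : ∀ j ∈ J, Commute j q := fun j hj => mem_centralizer_singleton_iff.1 (hJC hj)
  have hcard : Nat.card J = 1344 := card_eq hE8 e
  set E : Subgroup G := E₀.map J.subtype with hEdef
  have hEJ : E ≤ J := map_subtype_le E₀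
  have hEcard : Nat.card E = 8 := by
    rw [hEdef, card_map_of_injective J.subtype_injective]; exact hE8
  have hEsq : ∀ a ∈ E, a * a = 1 := by
    rintro _ ⟨a, ha, rfl⟩
    have := hel.2 a ha
    rw [pow_two] at this
    simpa using congrArg Subtype.val this
  have hmemE : ∀ {x : G} (hx : x ∈ J), x ∈ E ↔ (⟨x, hx⟩ : J) ∈ E₀ := fun {x} hx => by
    constructor
    · rintro ⟨y, hy, rfl⟩
      exact hy
    · exact fun h => ⟨_, h, rfl⟩
  -- the centralizer of `q` is the product
  have hCq : centralizer ({q} : Set G) = J ⊔ zpowers q := by rw [← hsup, sup_comm]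
  have hJQ : J ⊓ zpowers q = ⊥ := by rw [inf_comm]; exact hQJ
  have hdec : ∀ x, Commute x q → ∃ j ∈ J, ∃ i : ℤ, x = j * q ^ i := by
    intro x hx
    have hle : J ≤ normalizer (zpowers q : Set G) := fun j hj => by
      refine le_normalizer_of_commute ?_ hj
      exact hcomm
    have hmem : x ∈ ((J ⊔ zpowers q : Subgroup G) : Set G) :=
      hCq ▸ mem_centralizer_singleton_iff.2 hx.eq
    rw [coe_mul_of_left_le_normalizer_right _ _ hle] at hmem
    obtain ⟨j, hj, a, ⟨i, rfl⟩, hja⟩ := hmem
    exact ⟨j, hj, i, hja.symm⟩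
  have hinvJ : ∀ x, Commute x q → x * x = 1 → x ∈ J := by
    intro x hx h2
    obtain ⟨j, hj, i, rfl⟩ := hdec x hx
    have hc : Commute j (q ^ i) := (hJq j hj).zpow_right i
    have h3 : (q ^ i) * (q ^ i) ∈ J := by
      rw [show j * q ^ i * (j * q ^ i) = (j * j) * (q ^ i * q ^ i) by
        rw [mul_assoc, ← mul_assoc (q ^ i) j, ← hc.eq]; group] at h2
      rw [eq_inv_of_mul_eq_one_right h2]
      exact inv_mem (mul_mem hj hj)
    have h4 : (q ^ i) * (q ^ i) = 1 :=
      mem_bot.1 (hJQ ▸ ⟨h3, mul_mem ⟨i, rfl⟩ ⟨i, rfl⟩⟩)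
    have h5 : (q ^ i) ^ 5 = 1 := by
      rw [← zpow_natCast, ← zpow_mul, mul_comm, zpow_mul, zpow_natCast]
      have := pow_orderOf_eq_one q
      rw [hq] at this
      rw [this, one_zpow]
    have h6 : q ^ i = 1 := by
      rw [show (5 : ℕ) = 2 + 2 + 1 by rfl, pow_succ, pow_add, pow_two, h4, one_mul, one_mul] at h5
      exact h5
    rw [h6, mul_one]
    exact hj
  -- centralizers of involutions inside `J`
  let inJ : ∀ {u : G} (hu : u ∈ J),
      Nat.card ↥(centralizer ({(⟨u, hu⟩ : J)} : Set J)) = Nat.card ↥(J ⊓ centralizer ({u} : Set G)) :=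
    fun {u} hu => Nat.card_congr
      { toFun := fun x => ⟨(x : J), (x : J).2, mem_centralizer_singleton_iff.2
          (congrArg Subtype.val (mem_centralizer_singleton_iff.1 x.2))⟩
        invFun := fun x => ⟨⟨(x : G), x.2.1⟩, mem_centralizer_singleton_iff.2
          (Subtype.ext (mem_centralizer_singleton_iff.1 x.2.2))⟩
        left_inv := fun x => rfl
        right_inv := fun x => rfl }
  have hpart : ∀ u : G, Commute u q →
      Nat.card ↥(J ⊓ centralizer ({u} : Set G)) ∣
        Nat.card ↥(centralizer ({q} : Set G) ⊓ centralizer ({u} : Set G)) ∧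
      Nat.card ↥(centralizer ({q} : Set G) ⊓ centralizer ({u} : Set G)) ∣
        5 * Nat.card ↥(J ⊓ centralizer ({u} : Set G)) := by
    intro u hu
    set U := centralizer ({q} : Set G) ⊓ centralizer ({u} : Set G) with hU
    set W := J ⊓ centralizer ({u} : Set G) with hW
    have hWU : W ≤ U := inf_le_inf_right _ hJC
    refine ⟨card_dvd_of_le hWU, ?_⟩
    have hQU : zpowers q ≤ U := zpowers_le.2
      ⟨mem_centralizer_singleton_iff.2 rfl, mem_centralizer_singleton_iff.2 hu.symm.eq⟩
    have hUeq : U = zpowers q ⊔ W := by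
      refine le_antisymm (fun x hx => ?_) (sup_le hQU hWU)
      obtain ⟨j, hj, i, rfl⟩ := hdec x (mem_centralizer_singleton_iff.1 hx.1)
      have hi : q ^ i ∈ U := hQU ⟨i, rfl⟩
      have hjU : j ∈ U := by
        have := mul_mem hx (inv_mem hi)
        rwa [mul_inv_cancel_right] at this
      exact mul_mem (mem_sup_right ⟨hj, hjU.2⟩) (mem_sup_left ⟨i, rfl⟩)
    have hnorm : W ≤ normalizer (zpowers q : Set G) := fun j hj => by
      refine le_normalizer_of_commute ?_ hj.1
      exact hcomm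
    have h := card_sup_mul_card_inf_of_le_normalizer hnorm
    have hbot : W ⊓ zpowers q = ⊥ :=
      eq_bot_iff.2 (le_trans (inf_le_inf_right _ inf_le_left) hJQ.le)
    rw [hbot, card_bot, mul_one, Nat.card_zpowers, hq] at h
    rw [hUeq, sup_comm, h, mul_comm]
  obtain ⟨h7, h192⟩ := seven_notDvd_five_cent hJ hq hqz
  have hzJ : z ∈ J := hinvJ z hqz.symm hzz
  have h192J : ∀ {u : G} (hu : u ∈ J),
      192 ∣ Nat.card ↥(centralizer ({q} : Set G) ⊓ centralizer ({u} : Set G)) →
      192 ∣ Nat.card ↥(centralizer ({(⟨u, hu⟩ : J)} : Set J)) := fun {u} hu h => by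
    rw [inJ hu]
    exact (Nat.Coprime.dvd_mul_left (by norm_num : Nat.Coprime 192 5)).1
      (h.trans (hpart u (hJq u hu)).2)
  have hzE₀ : (⟨z, hzJ⟩ : J) ∈ E₀ :=
    mem_of_dvd e hE8 (Subtype.ext hzz) (h192J hzJ h192)
  have hzE : z ∈ E := (hmemE hzJ).2 hzE₀
  have h7J : ¬ 7 ∣ Nat.card ↥(centralizer ({(⟨z, hzJ⟩ : J)} : Set J)) := fun h => by
    rw [inJ hzJ] at h
    exact h7 (h.trans (hpart z hqz.symm).1)
  have hEab : ∀ a ∈ E₀, ∀ b ∈ E₀, a * b = b * a := fun a ha b hb =>
    congrArg Subtype.val (hel.1.is_comm.comm (⟨a, ha⟩ : E₀) ⟨b, hb⟩)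
  have hcentE₀ : centralizer (E₀ : Set J) = E₀ := by
    refine centralizer_eq e hE8 hEab hzE₀ fun h => h7J ?_
    rw [h, card_top, hcard]
    norm_num
  have htrans : ∀ a ∈ E, a ≠ 1 → ∀ b ∈ E, b ≠ 1 → ∃ g ∈ J, g * a * g⁻¹ = b := by
    have key : ∀ b ∈ E, b ≠ 1 → ∃ g ∈ J, g * z * g⁻¹ = b := by
      intro b hb hb1
      obtain ⟨g, hg⟩ := exists_conj hE8 e hzE₀ (fun h => hz1 (congrArg Subtype.val h))
        ((hmemE (hEJ hb)).1 hb) (fun h => hb1 (congrArg Subtype.val h)) h7J
      exact ⟨g, g.2, congrArg Subtype.val hg⟩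
    intro a ha ha1 b hb hb1
    obtain ⟨g, hg, rfl⟩ := key a ha ha1
    obtain ⟨k, hk, rfl⟩ := key b hb hb1
    exact ⟨k * g⁻¹, mul_mem hk (inv_mem hg), by group⟩
  have hJE : J ≤ normalizer (E : Set G) := by
    intro g hg
    refine mem_normalizer_iff.2 fun x => ⟨fun hx => ?_, fun hx => ?_⟩
    · exact (hmemE (mul_mem (mul_mem hg (hEJ hx)) (inv_mem hg))).2
        (hE₀n.conj_mem _ ((hmemE (hEJ hx)).1 hx) ⟨g, hg⟩)
    · have hxJ : x ∈ J := by
        have := mul_mem (mul_mem (inv_mem hg) (hEJ hx)) hg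
        simpa [mul_assoc] using this
      have := hE₀n.conj_mem _ ((hmemE (hEJ hx)).1 hx) (⟨g, hg⟩ : J)⁻¹
      refine (hmemE hxJ).2 ?_
      convert this using 1
      exact Subtype.ext (by simp [mul_assoc])
  have hcentJ : J ⊓ centralizer (E : Set G) = E := by
    refine le_antisymm ?_ (le_inf hEJ fun x hx => ?_)
    · rintro x ⟨hx, hxc⟩
      refine (hmemE hx).2 (hcentE₀.le (mem_centralizer_iff.2 fun y hy => Subtype.ext ?_))
      exact mem_centralizer_iff.1 hxc (y : G) ((hmemE y.2).2 hy)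
    · exact mem_centralizer_iff.2 fun y hy =>
        congrArg Subtype.val (hEab ⟨y, hEJ hy⟩ ((hmemE _).1 hy) ⟨x, hEJ hx⟩ ((hmemE _).1 hx))
  have hclsE : ∀ a ∈ E, a ≠ 1 → IsConj z a := fun a ha ha1 =>
    let ⟨g, _, hg⟩ := htrans z hzE hz1 a ha ha1
    isConj_iff.2 ⟨g, hg⟩
  obtain ⟨c, hcz, -⟩ := CfsgLib.Jf18.exists_ctx hJ
  -- conjugates of `z` commuting with `q` and `z` lie in `E`
  have hmax : ∀ u : G, Commute u q → Commute u z → IsConj z u → u ∈ E := by
    intro u huq _ hu
    obtain ⟨g, rfl⟩ := isConj_iff.1 hu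
    have hu2 : g * z * g⁻¹ * (g * z * g⁻¹) = 1 := by
      rw [show g * z * g⁻¹ * (g * z * g⁻¹) = g * (z * z) * g⁻¹ by group, hzz]; group
    have huJ := hinvJ _ huq hu2
    have hJu := c.hJ_map (MulAut.conj g)
    rw [show (MulAut.conj g) c.z = g * z * g⁻¹ by rw [hcz]; rfl] at hJu
    exact (hmemE huJ).2 (mem_of_dvd e hE8 (Subtype.ext hu2)
      (h192J huJ (seven_notDvd_five_cent hJu hq huq.symm).2))
  have hEq : E ≤ centralizer ({q} : Set G) := hEJ.trans hJC
  have hnE : ∀ g, Commute g q → Commute g z → ∀ a ∈ E, g * a * g⁻¹ ∈ E := by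
    intro g hg _ a ha
    obtain ⟨j, hj, i, rfl⟩ := hdec g hg
    have hai : Commute (q ^ i) a := ((hJq a (hEJ ha)).zpow_right i).symm
    rw [show j * q ^ i * a * (j * q ^ i)⁻¹ = j * (q ^ i * a * (q ^ i)⁻¹) * j⁻¹ by group, hai.eq,
      mul_inv_cancel_right]
    exact (mem_normalizer_iff.1 (hJE hj) a).1 ha
  obtain ⟨hcore, hbig, hnonab, hsmall, hthree⟩ := eight_facts hJ hq hqz hEsq hEcard hzE hEq hnE hclsE
    hmax fun t ht hn => CfsgLib.J4Five49.not_two_pow_twenty_dvd hS ht hn
  have hcoreAll : ∀ a ∈ E, a ≠ 1 → E ≤ Cfsg.twoCoreOfCentralizer a := by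
    intro a ha ha1
    obtain ⟨g, hg, rfl⟩ := htrans z hzE hz1 a ha ha1
    have h := c.twoCore_map (MulAut.conj g)
    rw [show (MulAut.conj g) c.z = g * z * g⁻¹ by rw [hcz]; rfl] at h
    rw [h]
    intro x hx
    refine ⟨g⁻¹ * x * g, ?_, by simp [mul_assoc]⟩
    show g⁻¹ * x * g ∈ Cfsg.twoCoreOfCentralizer c.z
    rw [hcz]
    refine hcore ?_
    have := (mem_normalizer_iff.1 (hJE (inv_mem hg)) x).1 hx
    simpa using this
  -- normalizer of the subgroup generated by `q`
  have hnormQ : normalizer (zpowers q : Set G) ≤ normalizer (E : Set G) := by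
    have hJinv : ∀ n ∈ normalizer (zpowers q : Set G), ∀ x ∈ J, n * x * n⁻¹ ∈ J := by
      intro n hn x hx
      have hn' : n⁻¹ * q * n ∈ zpowers q := by
        have := (mem_normalizer_iff.1 (inv_mem hn) q).1 (mem_zpowers q)
        simpa using this
      obtain ⟨k, hk⟩ := hn'
      have hc : Commute (n * x * n⁻¹) q := by
        have h1 : Commute x (n⁻¹ * q * n) := hk ▸ (hJq x hx).zpow_right k
        show n * x * n⁻¹ * q = q * (n * x * n⁻¹)
        rw [show n * x * n⁻¹ * q = n * (x * (n⁻¹ * q * n)) * n⁻¹ by group, h1.eq]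
        group
      obtain ⟨j, hj, i, hji⟩ := hdec _ hc
      have hx' : x ^ 1344 = 1 := by
        have := pow_card_eq_one' (x := (⟨x, hx⟩ : J))
        rw [hcard] at this
        exact congrArg Subtype.val this
      have hj' : j ^ 1344 = 1 := by
        have := pow_card_eq_one' (x := (⟨j, hj⟩ : J))
        rw [hcard] at this
        exact congrArg Subtype.val this
      have h0 : (n * x * n⁻¹) ^ 1344 = 1 := by rw [conj_pow, hx', mul_one, mul_inv_cancel]
      rw [hji, ((hJq j hj).zpow_right i).mul_pow, hj', one_mul, ← zpow_natCast, ← zpow_mul] at h0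
      have h5 : (5 : ℤ) ∣ i * 1344 := by
        have := orderOf_dvd_iff_zpow_eq_one.2 h0
        rwa [hq] at this
      obtain ⟨m, hm⟩ : (5 : ℤ) ∣ i := by omega
      rw [hji, hm, zpow_mul, show q ^ (5 : ℤ) = 1 by
        rw [show ((5 : ℤ)) = ((5 : ℕ) : ℤ) by rfl, zpow_natCast, ← hq, pow_orderOf_eq_one], one_zpow,
        mul_one]
      exact hj
    intro n hn
    let F : Subgroup J := (E.map (MulAut.conj n).toMonoidHom).subgroupOf J
    have hFle : E.map (MulAut.conj n).toMonoidHom ≤ J := by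
      rintro _ ⟨x, hx, rfl⟩
      exact hJinv n hn x (hEJ hx)
    haveI : F.Normal := ⟨fun a ha g => by
      rw [mem_subgroupOf] at ha ⊢
      obtain ⟨x, hx, hxe⟩ := ha
      refine ⟨(n⁻¹ * g * n) * x * (n⁻¹ * g * n)⁻¹, ?_, ?_⟩
      · refine (mem_normalizer_iff.1 (hJE ?_) x).1 hx
        have := hJinv n⁻¹ (inv_mem hn) g g.2
        simpa using this
      · have hxe' : n * x * n⁻¹ = (a : G) := hxe
        show n * _ * n⁻¹ = (g : G) * a * (g : G)⁻¹
        rw [← hxe']; group⟩
    have hF8 : Nat.card F = 8 := by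
      rw [Nat.card_congr (subgroupOfEquivOfLe hFle).toEquiv,
        card_map_of_injective (MulAut.conj n).injective, hEcard]
    have hFE := eq_of_normal_eight e hE8 hF8
    have hmap : E.map (MulAut.conj n).toMonoidHom = E := by
      conv_rhs => rw [hEdef, ← hFE]
      rw [subgroupOf_map_subtype, inf_eq_left.2 hFle]
    refine mem_normalizer_iff.2 fun x => ?_
    conv_rhs => rw [← hmap]
    constructor
    · exact fun hx => ⟨x, hx, rfl⟩
    · rintro ⟨y, hy, hye⟩
      have : n * y * n⁻¹ = n * x * n⁻¹ := hye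
      rw [mul_left_cancel (mul_right_cancel this)] at hy
      exact hy
  -- all automorphisms of the subgroup generated by `q` are induced
  have hqnorm : ∃ r, r * q * r⁻¹ = q * q := by
    set N := normalizer (zpowers q : Set G) with hNdef
    set C := centralizer ({q} : Set G) with hCdef
    have hCN : C ≤ N := fun x hx => by
      refine le_normalizer_of_commute (K := C) ?_ hx
      rintro a ⟨i, rfl⟩ b hb
      exact ((show Commute b q from mem_centralizer_singleton_iff.1 hb).zpow_right i).symm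
    have hC : Nat.card C = 6720 := by
      have hle : J ≤ normalizer (zpowers q : Set G) := (hJC).trans hCN
      have h := card_sup_mul_card_inf_of_le_normalizer hle
      rw [hJQ, card_bot, mul_one, Nat.card_zpowers, hq, hcard, ← hCq] at h
      exact h
    let f : ↥N ⧸ C.subgroupOf N → G := Quotient.lift (fun n : N => (n : G) * q * (n : G)⁻¹)
      (fun a b hab => by
        have hab : a⁻¹ * b ∈ C.subgroupOf N := QuotientGroup.leftRel_apply.1 hab
        have h1 := mem_centralizer_singleton_iff.1 (mem_subgroupOf.1 hab)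
        simp only [coe_mul, coe_inv] at h1
        show (a : G) * q * (a : G)⁻¹ = b * q * (b : G)⁻¹
        rw [show (b : G) * q * (b : G)⁻¹ = (a : G) * (((a : G)⁻¹ * b) * q) * (b : G)⁻¹ by group, h1]
        group)
    have hinj : Function.Injective f := by
      intro a b
      induction a using QuotientGroup.induction_on with
      | H a =>
        induction b using QuotientGroup.induction_on with
        | H b =>
          intro h
          have h : (a : G) * q * (a : G)⁻¹ = b * q * (b : G)⁻¹ := h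
          rw [QuotientGroup.eq, mem_subgroupOf, mem_centralizer_singleton_iff]
          simp only [coe_mul, coe_inv]
          rw [show (a : G)⁻¹ * b * q = (a : G)⁻¹ * (b * q * (b : G)⁻¹) * b by group, ← h]
          group
    have hcard4 : Nat.card (↥N ⧸ C.subgroupOf N) = 4 := by
      have h := card_eq_card_quotient_mul_card_subgroup (C.subgroupOf N)
      rw [Nat.card_congr (subgroupOfEquivOfLe hCN).toEquiv, hC, hN] at h
      omega
    have hrange : (Set.range f).ncard = 4 := by
      rw [← Nat.card_coe_set_eq, Nat.card_range_of_injective hinj, hcard4]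
    have hsub : Set.range f ⊆ (zpowers q : Set G) \ {1} := by
      rintro _ ⟨a, rfl⟩
      induction a using QuotientGroup.induction_on with
      | H a =>
        exact ⟨(mem_normalizer_iff.1 a.2 q).1 (mem_zpowers q), fun h => by
          have : q = 1 := conj_eq_one_iff.1 h
          rw [this, orderOf_one] at hq
          norm_num at hq⟩
    have h4 : ((zpowers q : Set G) \ {1}).ncard = 4 := by
      rw [Set.ncard_sdiff_singleton_of_mem (one_mem _), ← Nat.card_coe_set_eq]
      show Nat.card (zpowers q) - 1 = 4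
      rw [Nat.card_zpowers, hq]
    have heq := Set.eq_of_subset_of_ncard_le hsub (by omega) (Set.toFinite _)
    have hmem : q * q ∈ (zpowers q : Set G) \ {1} := ⟨mul_mem (mem_zpowers q) (mem_zpowers q),
      fun h => by
        have := orderOf_dvd_of_pow_eq_one (show q ^ 2 = 1 by rw [pow_two]; exact h)
        rw [hq] at this
        norm_num at this⟩
    rw [← heq] at hmem
    obtain ⟨a, ha⟩ := hmem
    induction a using QuotientGroup.induction_on with
    | H a => exact ⟨(a : G), ha⟩
  -- the element of order seven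
  obtain ⟨s₀', hs₀'⟩ := exists_prime_orderOf_dvd_card' 7
    ((by norm_num : 7 ∣ 887040).trans hdvd)
  set s₀ : G := (s₀' : G) with hs₀def
  have hs₀ : orderOf s₀ = 7 := by rw [hs₀def, orderOf_coe, hs₀']
  obtain ⟨h49, ⟨I₀, hIprod, ⟨eI⟩⟩, -, hNs⟩ :=
    h73 (zpowers s₀) (by rw [Nat.card_zpowers, hs₀]) (zpowers_le.2 s₀'.2)
  obtain ⟨s', hs'⟩ := exists_prime_orderOf_dvd_card' (G := J) 7 (by rw [hcard]; norm_num)
  set s : G := (s' : G) with hsdef
  have hs : orderOf s = 7 := by rw [hsdef, orderOf_coe, hs']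
  obtain ⟨g, hg⟩ : ∃ g, zpowers s = (zpowers s₀).map (MulAut.conj g).toMonoidHom := by
    have h7G : (Nat.card G).factorization 7 = 1 := by
      refine le_antisymm ?_ ?_
      · by_contra h
        exact h49 (((show (49 : ℕ) = 7 ^ 2 by norm_num)).dvd.trans
          ((pow_dvd_pow 7 (show 2 ≤ (Nat.card G).factorization 7 by omega)).trans
            (Nat.ordProj_dvd _ _)))
      · exact ((show Nat.Prime 7 by norm_num).dvd_iff_one_le_factorization Nat.card_pos.ne').1
          (hs ▸ orderOf_dvd_natCard s)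
    let A : Sylow 7 G := Sylow.ofCard (zpowers s₀) (by rw [Nat.card_zpowers, hs₀, h7G, pow_one])
    let B : Sylow 7 G := Sylow.ofCard (zpowers s) (by rw [Nat.card_zpowers, hs, h7G, pow_one])
    obtain ⟨g, hg⟩ := MulAction.exists_smul_eq G A B
    refine ⟨g, ?_⟩
    have := congrArg Sylow.toSubgroup hg
    rw [Sylow.coe_subgroup_smul] at this
    exact this.symm
  obtain ⟨-, hIC, -, hSI, hIsup⟩ := hIprod
  set I := I₀.map (MulAut.conj g).toMonoidHom with hIdef
  have hcs : centralizer ({s} : Set G) = I ⊔ zpowers s := by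
    rw [hIdef, hg, ← Subgroup.map_sup, sup_comm, hIsup, centralizer_zpowers, centralizer_conj,
      ← centralizer_zpowers (g * s₀ * g⁻¹), ← centralizer_zpowers s, hg, MonoidHom.map_zpowers]
    rfl
  refine ⟨{
    z := z, q := q, s := s, E := E, J := J, I := I
    hz := hz, hq := hq, hs := hs, zE := hzE, sqE := hEsq, cardE := hEcard
    clsE := hclsE, cardJ := hcard, EJ := hEJ, JE := hJE, centJ := hcentJ, sJ := s'.2
    cq := hCq, Jq := hJQ, transJ := htrans
    noCompl := fun K hKJ hKE hKsup => ?_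
    normQ := hnormQ, qnorm := hqnorm, cs := hcs
    Is := ?_
    eI := ⟨((I₀.equivMapOfInjective _ (MulAut.conj g).injective).symm).trans eI⟩
    cardNs := ?_
    five := h25, seven := h49, core := hcoreAll, big := hbig, nonab := hnonab
    small := hsmall, cardH := card_H_dvd hJ, three := hthree }⟩
  · refine hns (K.subgroupOf J) (isComplement'_of_disjoint_and_mul_eq_univ ?_ ?_)
    · rw [disjoint_iff, eq_bot_iff]
      rintro x ⟨hxE, hxK⟩
      refine mem_bot.2 (Subtype.ext (mem_bot.1 (hKE ▸ ⟨hxK, (hmemE x.2).2 hxE⟩)))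
    · rw [eq_top_iff.2 (show (⊤ : Subgroup J) ≤ E₀ ⊔ K.subgroupOf J from ?_) |>.symm.le.antisymm
        le_top |>.symm |> fun h => (normal_mul E₀ (K.subgroupOf J)).symm]
      · have : E₀ ⊔ K.subgroupOf J = ⊤ := by
          refine map_injective J.subtype_injective ?_
          rw [Subgroup.map_sup, subgroupOf_map_subtype, inf_eq_left.2 hKJ, ← hEdef, sup_comm,
            hKsup, ← MonoidHom.range_eq_map, range_subtype]
        rw [this, coe_top]
      · intro x _
        have : E₀ ⊔ K.subgroupOf J = ⊤ := by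
          refine map_injective J.subtype_injective ?_
          rw [Subgroup.map_sup, subgroupOf_map_subtype, inf_eq_left.2 hKJ, ← hEdef, sup_comm,
            hKsup, ← MonoidHom.range_eq_map, range_subtype]
        rw [this]; exact mem_top x
  · rw [hIdef, hg, ← Subgroup.map_inf _ _ _ (MulAut.conj g).injective, inf_comm, hSI, Subgroup.map_bot]
  · rw [hg, ← map_equiv_normalizer_eq, card_map_of_injective (MulAut.conj g).injective, hNs]
    norm_num

end CfsgLib.J4Pentad
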