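import Mathlib

/-!
Counting lemmas used for the centralizer and the normalizer of the elementary group of order eight
in the pentad configuration.
-/

set_option autoImplicit false

universe u

namespace CfsgLib.J4Pentad.Cent72

variable {G : Type u} [Group G] [Finite G]

/-- The order of the product of two subgroups, one normalizing the other. -/
theorem card_sup_mul_card_inf {H K : Subgroup G} (hn : H ≤ Subgroup.normalizer (K : Set G)) :
    Nat.card ↥(H ⊔ K) * Nat.card ↥(H ⊓ K) = Nat.card ↥H * Nat.card ↥K := by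
  set N := Subgroup.normalizer (K : Set G) with hN
  have hKN : K ≤ N := Subgroup.le_normalizer
  haveI : (K.subgroupOf N).Normal := Subgroup.normal_in_normalizer
  have e : K.relIndex (H ⊔ K) = K.relIndex H := by
    rw [← Subgroup.relIndex_subgroupOf (sup_le hn hKN), ← Subgroup.relIndex_subgroupOf hn,
      Subgroup.subgroupOf_sup hn hKN, Subgroup.relIndex_sup_right]
  have h1 := (K.subgroupOf (H ⊔ K)).card_mul_index
  have h2 := (K.subgroupOf H).card_mul_index
  rw [Nat.card_congr (Subgroup.subgroupOfEquivOfLe le_sup_right).toEquiv] at h1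
  have h3 : Nat.card ↥(K.subgroupOf H) = Nat.card ↥(H ⊓ K) := by
    rw [← Subgroup.inf_subgroupOf_right K H]
    rw [Nat.card_congr (Subgroup.subgroupOfEquivOfLe inf_le_right).toEquiv, inf_comm]
  rw [h3] at h2
  change _ * K.relIndex _ = _ at h1 h2
  rw [← h1, ← h2, e]; ring

/-- The normalizer of a subgroup of prime order in `K` has order congruent to that of `K` modulo
the square of the prime, if this square does not divide the order of the subgroup. -/
theorem inf_normalizer_modEq {K : Subgroup G} {q : G} {p : ℕ} [hp : Fact p.Prime] (hqK : q ∈ K)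
    (hq : orderOf q = p) :
    Nat.card ↥(K ⊓ Subgroup.normalizer (Subgroup.zpowers q : Set G)) % p ^ 2 =
      Nat.card ↥K % p ^ 2 := by
  have hle : Subgroup.zpowers q ≤ K := Subgroup.zpowers_le.2 hqK
  have hc : Nat.card ↥((Subgroup.zpowers q).subgroupOf K) = p ^ 1 := by
    rw [Nat.card_congr (Subgroup.subgroupOfEquivOfLe hle).toEquiv, Nat.card_zpowers, hq, pow_one]
  have h := Sylow.card_normalizer_modEq_card hc
  have heq : Nat.card ↥(Subgroup.normalizer ((Subgroup.zpowers q).subgroupOf K : Set ↥K)) =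
      Nat.card ↥(K ⊓ Subgroup.normalizer (Subgroup.zpowers q : Set G)) := by
    rw [← Subgroup.subgroupOf_normalizer_eq hle, ← Subgroup.inf_subgroupOf_right,
      Nat.card_congr (Subgroup.subgroupOfEquivOfLe inf_le_right).toEquiv, inf_comm]
  rw [heq] at h
  exact h

/-- An orbit of conjugation inside a finite set bounds the index of the stabilizer. -/
theorem card_le_card_inf_cent (K : Subgroup G) (x : G) (S : Finset G)
    (hS : ∀ g ∈ K, g * x * g⁻¹ ∈ S) :
    Nat.card ↥K ≤ S.card * Nat.card ↥(K ⊓ Subgroup.centralizer ({x} : Set G)) := by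
  classical
  haveI := Fintype.ofFinite ↥K
  set C := K ⊓ Subgroup.centralizer ({x} : Set G) with hC
  haveI := Fintype.ofFinite ↥C
  let f : ↥K → G := fun g => (g : G) * x * (g : G)⁻¹
  have himg : (Finset.univ.image f).card ≤ S.card :=
    Finset.card_le_card fun y hy => by
      obtain ⟨g, -, rfl⟩ := Finset.mem_image.1 hy
      exact hS g g.2
  have hfib : ∀ b ∈ Finset.univ.image f, {g ∈ (Finset.univ : Finset ↥K) | f g = b}.card ≤ Nat.card ↥C := by
    intro b hb
    obtain ⟨g₀, -, rfl⟩ := Finset.mem_image.1 hb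
    rw [Nat.card_eq_fintype_card, ← Finset.card_univ]
    refine Finset.card_le_card_of_injOn
      (fun g => if h : (g₀ : G)⁻¹ * (g : G) ∈ C then (⟨_, h⟩ : ↥C) else 1) (fun _ _ => Finset.mem_univ _) ?_
    have hmem : ∀ g ∈ ({g ∈ (Finset.univ : Finset ↥K) | f g = f g₀} : Finset ↥K),
        (g₀ : G)⁻¹ * (g : G) ∈ C := by
      intro g hg
      have hg' : (g : G) * x * (g : G)⁻¹ = (g₀ : G) * x * (g₀ : G)⁻¹ := (Finset.mem_filter.1 hg).2
      refine Subgroup.mem_inf.2 ⟨K.mul_mem (K.inv_mem g₀.2) g.2, ?_⟩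
      rw [Subgroup.mem_centralizer_singleton_iff]
      calc (g₀ : G)⁻¹ * g * x = (g₀ : G)⁻¹ * ((g : G) * x * (g : G)⁻¹) * g := by group
        _ = (g₀ : G)⁻¹ * ((g₀ : G) * x * (g₀ : G)⁻¹) * g := by rw [hg']
        _ = x * ((g₀ : G)⁻¹ * g) := by group
    intro g hg g' hg' he
    have hg1 := hmem g (Finset.mem_coe.1 hg)
    have hg2 := hmem g' (Finset.mem_coe.1 hg')
    simp only [dif_pos hg1, dif_pos hg2, Subtype.mk.injEq] at he
    exact Subtype.ext (mul_left_cancel he)
  have h := Finset.card_le_mul_card_image (f := f) Finset.univ (Nat.card ↥C) hfib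
  rw [Finset.card_univ, ← Nat.card_eq_fintype_card, mul_comm] at h
  exact h.trans (Nat.mul_le_mul_right _ himg)

/-- The normalizer of an elementary group of order eight induces at most 168 automorphisms. -/
theorem card_normalizer_le_eight {E : Subgroup G} (h2 : ∀ a ∈ E, a * a = 1) (h8 : Nat.card ↥E = 8) :
    Nat.card ↥(Subgroup.normalizer (E : Set G)) ≤
      168 * Nat.card ↥(Subgroup.centralizer (E : Set G)) := by
  classical
  haveI := Fintype.ofFinite G
  set N := Subgroup.normalizer (E : Set G) with hN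
  let F : Finset G := (E : Set G).toFinset
  have hF : ∀ g, g ∈ F ↔ g ∈ E := fun g => by simp [F]
  have hF8 : F.card = 8 := by
    rw [← h8, Nat.card_eq_fintype_card]
    exact Set.toFinset_card _
  have pick : ∀ T : Finset G, T.card < 8 → ∃ a ∈ E, a ∉ T := fun T hT => by
    obtain ⟨a, ha, haT⟩ := Finset.exists_mem_notMem_of_card_lt_card (hT.trans_eq hF8.symm)
    exact ⟨a, (hF a).1 ha, haT⟩
  obtain ⟨a, ha, ha'⟩ := pick {1} (by simp)
  obtain ⟨b, hb, hb'⟩ := pick {1, a} (lt_of_le_of_lt Finset.card_le_two (by norm_num))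
  obtain ⟨c, hc, hc'⟩ := pick {1, a, b, a * b} (lt_of_le_of_lt Finset.card_le_four (by norm_num))
  simp only [Finset.mem_insert, Finset.mem_singleton, not_or] at ha' hb' hc'
  have hab : a * b ≠ 1 ∧ a * b ≠ a ∧ a * b ≠ b := by
    refine ⟨fun h => hb'.2 ?_, fun h => hb'.1 ?_, fun h => ha' ?_⟩
    · exact (mul_left_cancel (((h2 a ha).trans h.symm))).symm
    · exact mul_eq_left.1 h
    · exact mul_eq_right.1 h
  let T₁ : Finset G := F \ {1}
  let T₂ : Finset G := F \ {1, a}
  let T₃ : Finset G := F \ {1, a, b, a * b}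
  have hconj : ∀ g ∈ N, ∀ x ∈ E, g * x * g⁻¹ ∈ E := fun g hg x hx =>
    (Subgroup.mem_normalizer_iff.1 hg x).1 hx
  have hinj : ∀ g x y : G, g * x * g⁻¹ = g * y * g⁻¹ ↔ x = y := fun g x y => by simp
  have hfix : ∀ g x : G, g ∈ Subgroup.centralizer ({x} : Set G) → g * x * g⁻¹ = x := by
    intro g x hg
    rw [Subgroup.mem_centralizer_singleton_iff.1 hg, mul_inv_cancel_right]
  have e1 := card_le_card_inf_cent N a T₁ fun g hg => by
    simp only [T₁, Finset.mem_sdiff, hF, Finset.mem_singleton]
    exact ⟨hconj g hg a ha, fun h => ha' ((hinj g a 1).1 (by simpa using h))⟩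
  set N₁ := N ⊓ Subgroup.centralizer ({a} : Set G) with hN₁
  have e2 := card_le_card_inf_cent N₁ b T₂ fun g hg => by
    simp only [T₂, Finset.mem_sdiff, hF, Finset.mem_insert, Finset.mem_singleton, not_or]
    refine ⟨hconj g hg.1 b hb, fun h => hb'.1 ((hinj g b 1).1 (by simpa using h)), fun h => hb'.2 ?_⟩
    exact (hinj g b a).1 (h.trans (hfix g a hg.2).symm)
  set N₂ := N₁ ⊓ Subgroup.centralizer ({b} : Set G) with hN₂
  have e3 := card_le_card_inf_cent N₂ c T₃ fun g hg => by
    simp only [T₃, Finset.mem_sdiff, hF, Finset.mem_insert, Finset.mem_singleton, not_or]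
    refine ⟨hconj g hg.1.1 c hc, fun h => hc'.1 ((hinj g c 1).1 (by simpa using h)),
      fun h => hc'.2.1 ?_, fun h => hc'.2.2.1 ?_, fun h => hc'.2.2.2 ?_⟩
    · exact (hinj g c a).1 (h.trans (hfix g a hg.1.2).symm)
    · exact (hinj g c b).1 (h.trans (hfix g b hg.2).symm)
    · refine (hinj g c (a * b)).1 (h.trans (Eq.symm ?_))
      calc g * (a * b) * g⁻¹ = (g * a * g⁻¹) * (g * b * g⁻¹) := by group
        _ = a * b := by rw [hfix g a hg.1.2, hfix g b hg.2]
  have t1 : T₁.card ≤ 7 := by
    rw [Finset.card_sdiff_of_subset (by simp [hF, E.one_mem]), hF8, Finset.card_singleton]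
  have t2 : T₂.card ≤ 6 := by
    rw [Finset.card_sdiff_of_subset (by simp [Finset.insert_subset_iff, hF, E.one_mem, ha]), hF8,
      Finset.card_pair (Ne.symm ha')]
  have four : ({1, a, b, a * b} : Finset G).card = 4 := by
    rw [Finset.card_insert_of_notMem (by simp [eq_comm, ha', hb'.1, hab.1]),
      Finset.card_insert_of_notMem (by
        simp only [Finset.mem_insert, Finset.mem_singleton, not_or]
        exact ⟨Ne.symm hb'.2, Ne.symm hab.2.1⟩),
      Finset.card_pair (Ne.symm hab.2.2)]
  have t3 : T₃.card ≤ 4 := by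
    rw [Finset.card_sdiff_of_subset
      (by simp [Finset.insert_subset_iff, hF, E.one_mem, ha, hb, E.mul_mem ha hb]), hF8, four]
  -- an element fixing `a`, `b`, `c` centralizes `E`
  have hlast : N₂ ⊓ Subgroup.centralizer ({c} : Set G) ≤ Subgroup.centralizer (E : Set G) := by
    intro g hg
    set M := E ⊓ Subgroup.centralizer ({g} : Set G) with hM
    have hmem : ∀ x, x ∈ E → g ∈ Subgroup.centralizer ({x} : Set G) → x ∈ M := fun x hx hgx =>
      Subgroup.mem_inf.2 ⟨hx, Subgroup.mem_centralizer_singleton_iff.2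
        (Subgroup.mem_centralizer_singleton_iff.1 hgx).symm⟩
    have hsub : ({1, a, b, a * b, c} : Finset G) ⊆ (M : Set G).toFinset := by
      have hA := hmem a ha hg.1.1.2
      have hB := hmem b hb hg.1.2
      simp [Finset.insert_subset_iff, Set.insert_subset_iff, hA, hB, hmem c hc hg.2, M.one_mem,
        M.mul_mem hA hB]
    have h5 : ({1, a, b, a * b, c} : Finset G).card = 5 := by
      have : ({1, a, b, a * b, c} : Finset G) = insert c {1, a, b, a * b} := by
        ext; simp; tauto
      rw [this, Finset.card_insert_of_notMem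
        (by simp [hc'.1, hc'.2.1, hc'.2.2.1, hc'.2.2.2]), four]
    have hM5 : 5 ≤ Nat.card ↥M := by
      rw [Nat.card_eq_fintype_card]
      calc (5 : ℕ) = _ := h5.symm
        _ ≤ _ := Finset.card_le_card hsub
        _ = _ := Set.toFinset_card _
    have hME : M = E := by
      refine Subgroup.eq_of_le_of_card_ge inf_le_left ?_
      have hd := Subgroup.card_dvd_of_le (inf_le_left : M ≤ E)
      rw [h8] at hd ⊢
      have hle := Nat.le_of_dvd (by norm_num) hd
      generalize Nat.card ↥M = m at hM5 hd hle ⊢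
      interval_cases m <;> omega
    rw [Subgroup.mem_centralizer_iff]
    intro x hx
    have := Subgroup.mem_centralizer_singleton_iff.1 (hME.ge (SetLike.mem_coe.1 hx)).2
    exact this
  calc Nat.card ↥N ≤ 7 * Nat.card ↥N₁ := e1.trans (Nat.mul_le_mul_right _ t1)
    _ ≤ 7 * (6 * Nat.card ↥N₂) := Nat.mul_le_mul_left _ (e2.trans (Nat.mul_le_mul_right _ t2))
    _ ≤ 7 * (6 * (4 * Nat.card ↥(N₂ ⊓ Subgroup.centralizer ({c} : Set G)))) :=
        Nat.mul_le_mul_left _ (Nat.mul_le_mul_left _ (e3.trans (Nat.mul_le_mul_right _ t3)))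
    _ ≤ 7 * (6 * (4 * Nat.card ↥(Subgroup.centralizer (E : Set G)))) :=
        Nat.mul_le_mul_left _ (Nat.mul_le_mul_left _ (Nat.mul_le_mul_left _
          (Nat.le_of_dvd Nat.card_pos (Subgroup.card_dvd_of_le hlast))))
    _ = 168 * Nat.card ↥(Subgroup.centralizer (E : Set G)) := by ring

end CfsgLib.J4Pentad.Cent72
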