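/-
The odd part of the centralizer of the eight-group of a pentad configuration: its order is divisible
by no prime other than two, three and five, by three exactly once, and an element of order three of
it lies in the symmetric factor of the centralizer of `s`.
-/
import Cfsg.Agent.J4Pentad49.Basic
import Cfsg.Agent.Coprime44.InvariantSylow

set_option autoImplicit false

universe u

namespace CfsgLib.J4Pentad

variable {G : Type u} [Group G]

namespace Pentad

variable (d : Pentad G)

theorem s_notMem : d.s ∉ Subgroup.centralizer (d.E : Set G) := by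
  intro h
  have hE : d.s ∈ d.E := by rw [← d.centJ]; exact ⟨d.sJ, h⟩
  have h2 : orderOf d.s ∣ 2 := orderOf_dvd_of_pow_eq_one (by rw [pow_two]; exact d.sqE _ hE)
  rw [d.hs] at h2
  norm_num at h2

theorem normalizer_le_normalizer_centE :
    Subgroup.normalizer (d.E : Set G) ≤
      Subgroup.normalizer (Subgroup.centralizer (d.E : Set G) : Set G) := by
  have key : ∀ g ∈ Subgroup.normalizer (d.E : Set G), ∀ c ∈ Subgroup.centralizer (d.E : Set G),
      g * c * g⁻¹ ∈ Subgroup.centralizer (d.E : Set G) := by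
    intro g hg c hc
    rw [Subgroup.mem_centralizer_iff] at hc ⊢
    intro e he
    have he' : g⁻¹ * e * g ∈ d.E := (Subgroup.mem_normalizer_iff''.mp hg e).mp he
    calc e * (g * c * g⁻¹) = g * ((g⁻¹ * e * g) * c) * g⁻¹ := by group
      _ = g * (c * (g⁻¹ * e * g)) * g⁻¹ := by rw [hc _ he']
      _ = g * c * g⁻¹ * e := by group
  intro g hg
  rw [Subgroup.mem_normalizer_iff]
  refine fun c => ⟨key g hg c, fun hc => ?_⟩
  simpa [mul_assoc] using key g⁻¹ (inv_mem hg) _ hc

theorem s_normalizes_centE :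
    Subgroup.zpowers d.s ≤ Subgroup.normalizer (Subgroup.centralizer (d.E : Set G) : Set G) := by
  rw [Subgroup.zpowers_le]
  exact d.normalizer_le_normalizer_centE (d.JE d.sJ)

theorem card_cent_dvd [Finite G] :
    Nat.card ↥(Subgroup.centralizer (d.E : Set G)) ∣ 2 ^ 21 * 3 ^ 3 * 5 * 7 * 11 :=
  (Subgroup.card_dvd_of_le
    (Subgroup.centralizer_le (Set.singleton_subset_iff.mpr d.zE))).trans d.cardH

theorem not_seven_dvd [Finite G] : ¬ 7 ∣ Nat.card ↥(Subgroup.centralizer (d.E : Set G)) := by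
  intro h
  set C := Subgroup.centralizer (d.E : Set G) with hC
  set N := Subgroup.normalizer (C : Set G) with hN
  have hCN : C ≤ N := Subgroup.le_normalizer
  have hs : d.s ∈ N := d.s_normalizes_centE (Subgroup.mem_zpowers d.s)
  haveI : (C.subgroupOf N).Normal := Subgroup.normal_in_normalizer
  have hidx : 7 ∣ (C.subgroupOf N).index := by
    have h1 : orderOf (QuotientGroup.mk' (C.subgroupOf N) ⟨d.s, hs⟩) = 7 := by
      haveI : Fact (Nat.Prime 7) := ⟨by norm_num⟩
      refine orderOf_eq_prime ?_ ?_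
      · rw [← map_pow]
        have h7 : (⟨d.s, hs⟩ : N) ^ 7 = 1 := Subtype.ext (by
          have := pow_orderOf_eq_one d.s
          rwa [d.hs] at this)
        rw [h7, map_one]
      · intro h1
        rw [QuotientGroup.mk'_apply, QuotientGroup.eq_one_iff, Subgroup.mem_subgroupOf] at h1
        exact d.s_notMem h1
    rw [Subgroup.index_eq_card, ← h1]
    exact orderOf_dvd_natCard _
  have h49 : 49 ∣ Nat.card N := by
    rw [← Subgroup.card_mul_index (C.subgroupOf N), Nat.card_congr (Subgroup.subgroupOfEquivOfLe hCN).toEquiv]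
    exact Nat.mul_dvd_mul h hidx
  exact d.seven (h49.trans (Subgroup.card_subgroup_dvd_card N))

theorem mem_I_of_pow_eq_one {x : G} (hx : x ∈ Subgroup.centralizer ({d.s} : Set G)) {n : ℕ}
    (hn : x ^ n = 1) (h7 : n.Coprime 7) : x ∈ d.I := by
  have hI : d.I ≤ Subgroup.centralizer ({d.s} : Set G) := by rw [d.cs]; exact le_sup_left
  have hle : Subgroup.zpowers d.s ≤ Subgroup.normalizer (d.I : Set G) := by
    rw [Subgroup.zpowers_le, Subgroup.mem_normalizer_iff]
    intro i
    constructor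
    · intro hi
      have := Subgroup.mem_centralizer_singleton_iff.mp (hI hi)
      rw [show d.s * i * d.s⁻¹ = i by rw [← this]; group]
      exact hi
    · intro hi
      have := Subgroup.mem_centralizer_singleton_iff.mp (hI hi)
      have h' : d.s * i * d.s⁻¹ = i := by
        have h2 : d.s⁻¹ * (d.s * i * d.s⁻¹) * d.s = i := by group
        rw [show d.s⁻¹ * (d.s * i * d.s⁻¹) * d.s = d.s * i * d.s⁻¹ by
          rw [mul_assoc d.s⁻¹, this]; group] at h2
        exact h2
      exact h' ▸ hi
  rw [d.cs, ← SetLike.mem_coe, Subgroup.coe_mul_of_right_le_normalizer_left _ _ hle] at hx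
  obtain ⟨i, hi, t, ht, rfl⟩ := hx
  have hcomm : Commute i t := by
    obtain ⟨k, rfl⟩ := Subgroup.mem_zpowers_iff.mp ht
    exact (show Commute i d.s from Subgroup.mem_centralizer_singleton_iff.mp (hI hi)).zpow_right k
  simp only at hn ⊢
  rw [hcomm.mul_pow] at hn
  have htn : t ^ n = 1 := by
    have h1 : t ^ n ∈ d.I ⊓ Subgroup.zpowers d.s :=
      ⟨by rw [eq_inv_of_mul_eq_one_right hn]; exact d.I.inv_mem (d.I.pow_mem hi n), pow_mem ht n⟩
    rwa [d.Is, Subgroup.mem_bot] at h1
  have ht7 : t ^ 7 = 1 := by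
    rw [← d.hs]
    exact orderOf_dvd_iff_pow_eq_one.mp (Subgroup.orderOf_dvd_natCard _ ht |>.trans
      (by rw [Nat.card_zpowers]))
  have : t = 1 := by
    have h1 : orderOf t ∣ Nat.gcd n 7 :=
      Nat.dvd_gcd (orderOf_dvd_of_pow_eq_one htn) (orderOf_dvd_of_pow_eq_one ht7)
    rw [h7, Nat.dvd_one, orderOf_eq_one_iff] at h1
    exact h1
  rw [this, mul_one]
  exact hi

/-- A Sylow subgroup of `C(E)` for an odd prime other than five and seven lies in `I`. -/
theorem exists_sylow_le_I [Finite G] {r a : ℕ} [hr : Fact r.Prime] (h7 : r.Coprime 7)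
    (ha : r ^ (a + 1) ∣ Nat.card ↥(Subgroup.centralizer (d.E : Set G)) → False)
    (hfix : ∀ i ≤ a, ∀ j ≤ i, r ^ i ≡ r ^ j [MOD 7] → j = i) :
    ∃ R : Sylow r ↥(Subgroup.centralizer (d.E : Set G)),
      (R : Subgroup ↥(Subgroup.centralizer (d.E : Set G))).map (Subgroup.subtype _) ≤
        d.I ⊓ Subgroup.centralizer (d.E : Set G) := by
  haveI : Fact (Nat.Prime 7) := ⟨by norm_num⟩
  set C := Subgroup.centralizer (d.E : Set G) with hC
  have hU : IsPGroup 7 (Subgroup.zpowers d.s) :=
    IsPGroup.of_card (n := 1) (by rw [Nat.card_zpowers, d.hs, pow_one])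
  obtain ⟨R, hR⟩ := CfsgLib.Coprime44.exists_invariant_sylow hU d.not_seven_dvd d.s_normalizes_centE r
  refine ⟨R, ?_⟩
  set R' : Subgroup G := (R : Subgroup ↥C).map C.subtype with hR'
  obtain ⟨i, hi⟩ := (R.2.map C.subtype).exists_card_eq
  change Nat.card ↥R' = r ^ i at hi
  have hR'C : R' ≤ C := Subgroup.map_subtype_le _
  have hia : i ≤ a := by
    by_contra hlt
    exact ha ((pow_dvd_pow r (not_le.mp hlt)).trans (hi ▸ Subgroup.card_dvd_of_le hR'C))
  let φ : ↥(Subgroup.zpowers d.s) →* MulAut ↥R' := R'.normalizerMonoidHom.comp (Subgroup.inclusion hR)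
  letI : MulAction ↥(Subgroup.zpowers d.s) ↥R' := MulAction.compHom _ φ
  let F : Subgroup G := R' ⊓ Subgroup.centralizer ({d.s} : Set G)
  have hF : Nat.card (MulAction.fixedPoints ↥(Subgroup.zpowers d.s) ↥R') = Nat.card ↥F := by
    refine Nat.card_congr
      { toFun := fun x => ⟨(x.1 : G), x.1.2, ?_⟩
        invFun := fun x => ⟨⟨x.1, x.2.1⟩, ?_⟩
        left_inv := fun x => rfl
        right_inv := fun x => rfl }
    · refine Subgroup.mem_centralizer_singleton_iff.mpr ?_
      have h := congrArg Subtype.val (x.2 ⟨d.s, Subgroup.mem_zpowers _⟩)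
      change d.s * (x.1 : G) * d.s⁻¹ = (x.1 : G) at h
      calc (x.1 : G) * d.s = (d.s * (x.1 : G) * d.s⁻¹) * d.s := by rw [h]
        _ = d.s * (x.1 : G) := by group
    · intro g
      obtain ⟨k, hk⟩ := Subgroup.mem_zpowers_iff.mp g.2
      apply Subtype.ext
      change (g : G) * x.1 * (g : G)⁻¹ = x.1
      have hc : Commute x.1 d.s := Subgroup.mem_centralizer_singleton_iff.mp x.2.2
      rw [← hk, (hc.zpow_right k).symm.eq, mul_inv_cancel_right]
  have hmod := hU.card_modEq_card_fixedPoints ↥R'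
  rw [hF, hi] at hmod
  obtain ⟨j, hj⟩ := ((R.2.map C.subtype).to_le (inf_le_left : F ≤ R')).exists_card_eq
  have hji : j ≤ i := by
    have := Subgroup.card_dvd_of_le (inf_le_left : F ≤ R')
    rw [hj, hi] at this
    exact (Nat.pow_dvd_pow_iff_le_right hr.out.one_lt).mp this
  rw [hj] at hmod
  have hFR : F = R' := Subgroup.eq_of_le_of_card_ge inf_le_left
    (by rw [hj, hi, hfix i hia j hji hmod])
  intro x hx
  refine ⟨d.mem_I_of_pow_eq_one ((hFR ▸ hx : x ∈ F)).2 (n := r ^ i) ?_ (h7.pow_left i), hR'C hx⟩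
  rw [← hi]
  exact orderOf_dvd_iff_pow_eq_one.mp (Subgroup.orderOf_dvd_natCard _ hx)

theorem exists_sylow_three [Finite G] :
    ∃ R : Sylow 3 ↥(Subgroup.centralizer (d.E : Set G)),
      (R : Subgroup ↥(Subgroup.centralizer (d.E : Set G))).map (Subgroup.subtype _) ≤
        d.I ⊓ Subgroup.centralizer (d.E : Set G) := by
  refine d.exists_sylow_le_I (r := 3) (a := 3) (by norm_num) (fun h => ?_) ?_
  · exact absurd (h.trans d.card_cent_dvd) (by norm_num)
  · intro i hi j hj h
    unfold Nat.ModEq at h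
    interval_cases i <;> interval_cases j <;> simp_all

theorem prime_dvd [Finite G] {r : ℕ} (hr : r.Prime)
    (h : r ∣ Nat.card ↥(Subgroup.centralizer (d.E : Set G))) : r = 2 ∨ r = 3 ∨ r = 5 := by
  haveI : Fact r.Prime := ⟨hr⟩
  have hbase : ∀ {p k : ℕ}, p.Prime → r ∣ p ^ k → r = p := fun hp hd =>
    (Nat.prime_dvd_prime_iff_eq hr hp).mp (hr.dvd_of_dvd_pow hd)
  have hd := h.trans d.card_cent_dvd
  rcases (hr.dvd_mul).mp hd with hd | hd
  rcases (hr.dvd_mul).mp hd with hd | hd
  rcases (hr.dvd_mul).mp hd with hd | hd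
  rcases (hr.dvd_mul).mp hd with hd | hd
  · exact Or.inl (hbase (by norm_num) hd)
  · exact Or.inr (Or.inl (hbase (by norm_num) hd))
  · exact Or.inr (Or.inr ((Nat.prime_dvd_prime_iff_eq hr (by norm_num)).mp hd))
  · obtain rfl := (Nat.prime_dvd_prime_iff_eq hr (by norm_num)).mp hd
    exact absurd h d.not_seven_dvd
  · obtain rfl := (Nat.prime_dvd_prime_iff_eq hr (by norm_num)).mp hd
    exfalso
    obtain ⟨R, hR⟩ := d.exists_sylow_le_I (r := 11) (a := 1) (by norm_num)
      (fun h2 => absurd (h2.trans d.card_cent_dvd) (by norm_num))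
      (by intro i hi j hj hij
          unfold Nat.ModEq at hij
          interval_cases i <;> interval_cases j <;> simp_all)
    have h1 := Subgroup.card_dvd_of_le (hR.trans inf_le_left)
    rw [Subgroup.card_map_of_injective (Subgroup.subtype_injective _)] at h1
    have h11 : 11 ∣ Nat.card (d.I : Subgroup G) := by
      exact (pow_one 11 ▸ Sylow.pow_dvd_card_of_pow_dvd_card (n := 1) R (by simpa using h)).trans h1
    obtain ⟨e⟩ := d.eI
    rw [Nat.card_congr e.toEquiv, Nat.card_perm, Nat.card_fin] at h11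
    exact absurd h11 (by norm_num [Nat.factorial])

theorem card_sylow_three_dvd [Finite G] (R : Sylow 3 ↥(Subgroup.centralizer (d.E : Set G)))
    (hR : (R : Subgroup ↥(Subgroup.centralizer (d.E : Set G))).map (Subgroup.subtype _) ≤
      d.I ⊓ Subgroup.centralizer (d.E : Set G)) :
    Nat.card (R : Subgroup ↥(Subgroup.centralizer (d.E : Set G))) ∣ 120 := by
  have h1 := Subgroup.card_dvd_of_le (hR.trans inf_le_left)
  rw [Subgroup.card_map_of_injective (Subgroup.subtype_injective _)] at h1
  obtain ⟨e⟩ := d.eI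
  rw [Nat.card_congr e.toEquiv, Nat.card_perm, Nat.card_fin] at h1
  simpa [Nat.factorial] using h1

theorem not_nine_dvd [Finite G] : ¬ 9 ∣ Nat.card ↥(Subgroup.centralizer (d.E : Set G)) := by
  intro h
  obtain ⟨R, hR⟩ := d.exists_sylow_three
  have h2 : 3 ^ 2 ∣ Nat.card (R : Subgroup ↥(Subgroup.centralizer (d.E : Set G))) :=
    Sylow.pow_dvd_card_of_pow_dvd_card R (by simpa using h)
  exact absurd (h2.trans (d.card_sylow_three_dvd R hR)) (by norm_num)

theorem exists_three [Finite G] :
    ∃ x ∈ d.I ⊓ Subgroup.centralizer (d.E : Set G), orderOf x = 3 := by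
  obtain ⟨R, hR⟩ := d.exists_sylow_three
  have h3 : 3 ∣ Nat.card (R : Subgroup ↥(Subgroup.centralizer (d.E : Set G))) := by
    simpa using Sylow.pow_dvd_card_of_pow_dvd_card (n := 1) R (by simpa using d.three)
  obtain ⟨y, hy⟩ := exists_prime_orderOf_dvd_card' 3 h3
  refine ⟨((y : ↥(Subgroup.centralizer (d.E : Set G))) : G), hR ⟨y, y.2, rfl⟩, ?_⟩
  rw [Subgroup.orderOf_coe, Subgroup.orderOf_coe, hy]

end Pentad

end CfsgLib.J4Pentad
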