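import Cfsg.Agent.J4Pentad49.Lgroup
import Cfsg.Agent.J4Pentad49.Odd
import Cfsg.Agent.J4Pentad.Lgroup
import Cfsg.Agent.J4Pentad49.Cent72Base

/-!
The centralizer of `E` is `L ⊔ I` with `L ⊓ I = 1`, the normalizer of `E` has order
`2 ^ 15 * 120 * 168`, and the normalizers of a Sylow 5- and a Sylow 7-subgroup lie in it.
-/

set_option autoImplicit false

universe u

namespace CfsgLib.J4Pentad

open Subgroup

variable {G : Type u} [Group G] [Finite G] (d : Pentad G)

omit [Finite G] in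
private theorem s_norm : d.s ∈ normalizer (d.E : Set G) := d.JE d.sJ

omit [Finite G] in
private theorem I_comm {i : G} (hi : i ∈ d.I) : Commute i d.s := by
  have h : i ∈ centralizer ({d.s} : Set G) := d.cs.ge (mem_sup_left hi)
  exact mem_centralizer_singleton_iff.1 h

private theorem card_I : Nat.card ↥d.I = 120 := by
  obtain ⟨e⟩ := d.eI
  rw [Nat.card_congr e.toEquiv, Nat.card_eq_fintype_card, Fintype.card_perm]
  rfl

omit [Finite G] in
private theorem mem_cs {g : G} (hg : g ∈ centralizer ({d.s} : Set G)) :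
    ∃ i ∈ d.I, ∃ k : ℤ, g = i * d.s ^ k := by
  rw [d.cs] at hg
  have hn : d.I ≤ normalizer (zpowers d.s : Set G) := by
    refine le_trans (fun i hi => ?_) (centralizer_le_normalizer _)
    rw [mem_centralizer_iff]
    rintro x ⟨k, rfl⟩
    exact ((I_comm d hi).zpow_right k).eq.symm
  rw [← SetLike.mem_coe, coe_mul_of_left_le_normalizer_right _ _ hn] at hg
  obtain ⟨i, hi, x, hx, rfl⟩ := Set.mem_mul.1 hg
  obtain ⟨k, rfl⟩ := mem_zpowers_iff.1 hx
  exact ⟨i, hi, k, rfl⟩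

omit [Finite G] in
private theorem norm_cent_le (E : Subgroup G) :
    normalizer (E : Set G) ≤ normalizer (centralizer (E : Set G) : Set G) := by
  intro g hg
  have key : ∀ g ∈ normalizer (E : Set G), ∀ x ∈ centralizer (E : Set G),
      g * x * g⁻¹ ∈ centralizer (E : Set G) := by
    intro g hg x hx
    rw [mem_centralizer_iff] at hx ⊢
    intro y hy
    have hy' : g⁻¹ * y * g ∈ E := (mem_normalizer_iff''.1 hg y).1 hy
    have := hx _ hy'
    calc y * (g * x * g⁻¹) = g * (g⁻¹ * y * g * x) * g⁻¹ := by group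
      _ = g * (x * (g⁻¹ * y * g)) * g⁻¹ := by rw [this]
      _ = g * x * g⁻¹ * y := by group
  refine mem_normalizer_iff.2 fun x => ⟨key g hg x, fun hx => ?_⟩
  have := key g⁻¹ (inv_mem hg) _ hx
  simpa [mul_assoc] using this

omit [Finite G] in
private theorem zpow_notMem {H : Subgroup G} {s : G} {p : ℕ} (hp : p.Prime) (hs : orderOf s = p)
    (hsH : s ∉ H) {k : ℤ} (hk : s ^ k ∈ H) : s ^ k = 1 := by
  by_contra hne
  have hdvd : ¬ (p : ℤ) ∣ k := by
    intro h
    apply hne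
    rw [← hs] at h
    exact orderOf_dvd_iff_zpow_eq_one.1 h
  have hcop : IsCoprime (p : ℤ) k := (Nat.prime_iff_prime_int.1 hp).coprime_iff_not_dvd.2 hdvd
  obtain ⟨a, b, hab⟩ := hcop
  apply hsH
  have : s = (s ^ k) ^ b := by
    rw [← zpow_mul]
    conv_lhs => rw [← zpow_one s, ← hab]
    rw [zpow_add, mul_comm a, zpow_mul, zpow_natCast, ← hs, pow_orderOf_eq_one, one_zpow, one_mul,
      mul_comm b k]
  rw [this]
  exact zpow_mem hk b

private theorem s_norm_cent : d.s ∈ normalizer (centralizer (d.E : Set G) : Set G) :=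
  (norm_cent_le _) (s_norm d)

/-- Elements commuting with `s` which normalize `E` induce powers of `s` on it. -/
private theorem exists_zpow {g : G} (hg : g ∈ normalizer (d.E : Set G)) (hgs : Commute g d.s) :
    ∃ k : ℤ, g * d.s ^ k ∈ centralizer (d.E : Set G) := by
  classical
  have hns := s_norm d
  obtain ⟨a, ha, hmove⟩ : ∃ a ∈ d.E, d.s * a ≠ a * d.s := by
    by_contra hne
    push Not at hne
    exact d.s_notMem (mem_centralizer_iff.2 fun a ha => (hne a ha).symm)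
  have ha1 : a ≠ 1 := fun h => hmove (by rw [h, mul_one, one_mul])
  have hs7 : Fact (Nat.Prime 7) := ⟨by norm_num⟩
  have hconj : ∀ x ∈ normalizer (d.E : Set G), ∀ y ∈ d.E, x * y * x⁻¹ ∈ d.E := fun x hx y hy =>
    (mem_normalizer_iff.1 hx y).1 hy
  let f : ↥(zpowers d.s) → {x : G // x ∈ d.E ∧ x ≠ 1} := fun t =>
    ⟨t * a * (t : G)⁻¹, hconj _ ((zpowers_le.2 hns) t.2) a ha, by simpa using ha1⟩
  have hstab : ∀ k : ℤ, d.s ^ k * a * (d.s ^ k)⁻¹ = a → d.s ^ k = 1 := fun k hk =>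
    zpow_notMem (H := centralizer ({a} : Set G)) hs7.out d.hs
      (fun h => hmove (mem_centralizer_singleton_iff.1 h))
      (mem_centralizer_singleton_iff.2 (mul_inv_eq_iff_eq_mul.1 hk))
  have hinj : Function.Injective f := by
    rintro ⟨t, ht⟩ ⟨u, hu⟩ he
    have he' : t * a * t⁻¹ = u * a * u⁻¹ := congrArg Subtype.val he
    obtain ⟨k, rfl⟩ := mem_zpowers_iff.1 ht
    obtain ⟨l, rfl⟩ := mem_zpowers_iff.1 hu
    apply Subtype.ext
    show d.s ^ k = d.s ^ l
    have h1 : d.s ^ (-l + k) = 1 := hstab _ (by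
      rw [zpow_add, zpow_neg]
      calc _ = (d.s ^ l)⁻¹ * (d.s ^ k * a * (d.s ^ k)⁻¹) * d.s ^ l := by group
        _ = _ := by rw [he']; group)
    rw [zpow_add, zpow_neg, inv_mul_eq_one] at h1
    exact h1.symm
  have hcard : Nat.card ↥(zpowers d.s) = Nat.card {x : G // x ∈ d.E ∧ x ≠ 1} := by
    rw [Nat.card_zpowers, d.hs]
    haveI := Fintype.ofFinite G
    rw [Nat.card_eq_fintype_card, Fintype.card_subtype,
      show ({x ∈ (Finset.univ : Finset G) | x ∈ d.E ∧ x ≠ 1}) = ((d.E : Set G).toFinset).erase 1 by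
        ext x; simp [and_comm],
      Finset.card_erase_of_mem (by simp [d.E.one_mem]), Set.toFinset_card]
    have := d.cardE
    rw [Nat.card_eq_fintype_card] at this
    simp only [SetLike.coe_sort_coe] at *
    omega
  have hsurj := ((Nat.bijective_iff_injective_and_card f).2 ⟨hinj, hcard⟩).2
  obtain ⟨⟨t, ht⟩, htk⟩ := hsurj ⟨g * a * g⁻¹, hconj g hg a ha, by simpa using ha1⟩
  obtain ⟨k, rfl⟩ := mem_zpowers_iff.1 ht
  have hk : d.s ^ k * a * (d.s ^ k)⁻¹ = g * a * g⁻¹ := congrArg Subtype.val htk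
  refine ⟨-k, mem_centralizer_iff.2 fun y hy => ?_⟩
  rcases eq_or_ne y 1 with rfl | hy1
  · simp
  obtain ⟨⟨t, ht⟩, htl⟩ := hsurj ⟨y, hy, hy1⟩
  obtain ⟨l, rfl⟩ := mem_zpowers_iff.1 ht
  have hl : d.s ^ l * a * (d.s ^ l)⁻¹ = y := congrArg Subtype.val htl
  have hc : Commute (g * d.s ^ (-k)) (d.s ^ l) :=
    ((hgs.mul_left ((Commute.refl d.s).zpow_left _)).zpow_right l)
  have hfa : (g * d.s ^ (-k)) * a * (g * d.s ^ (-k))⁻¹ = a := by
    calc _ = g * ((d.s ^ k)⁻¹ * a * d.s ^ k) * g⁻¹ := by rw [zpow_neg]; group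
      _ = (g * (d.s ^ k)⁻¹ * g⁻¹) * (g * a * g⁻¹) * (g * d.s ^ k * g⁻¹) := by group
      _ = (d.s ^ k)⁻¹ * (d.s ^ k * a * (d.s ^ k)⁻¹) * d.s ^ k := by
          rw [((hgs.zpow_right k).inv_right).eq, (hgs.zpow_right k).eq, mul_inv_cancel_right,
            mul_inv_cancel_right, hk]
      _ = a := by group
  set h := g * d.s ^ (-k) with hh
  have hfix : h * y * h⁻¹ = y := by
    rw [← hl]
    calc h * (d.s ^ l * a * (d.s ^ l)⁻¹) * h⁻¹
        = (h * d.s ^ l) * a * (h * d.s ^ l)⁻¹ := by group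
      _ = d.s ^ l * (h * a * h⁻¹) * (d.s ^ l)⁻¹ := by rw [hc.eq]; group
      _ = _ := by rw [hfa]
  exact (mul_inv_eq_iff_eq_mul.1 hfix).symm

/-- Commuting with `s` and centralizing `E`: only `I`. -/
private theorem cent_inf (hI : d.I ≤ centralizer (d.E : Set G)) :
    centralizer (d.E : Set G) ⊓ centralizer ({d.s} : Set G) ≤ d.I := by
  rintro g ⟨hgE, hgs⟩
  obtain ⟨i, hi, k, rfl⟩ := mem_cs d hgs
  have : d.s ^ k ∈ centralizer (d.E : Set G) := by
    have := mul_mem (inv_mem (hI hi)) hgE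
    simpa [← mul_assoc] using this
  rw [zpow_notMem (by norm_num) d.hs d.s_notMem this, mul_one]
  exact hi

omit [Finite G] in
private theorem q_mem_I : d.q ∈ d.I := by
  have hsq : d.s ∈ centralizer ({d.q} : Set G) := d.cq.ge (mem_sup_left d.sJ)
  obtain ⟨i, hi, k, hk⟩ := mem_cs d
    (mem_centralizer_singleton_iff.2 (mem_centralizer_singleton_iff.1 hsq).symm)
  have h5 : d.q ^ 5 = 1 := by rw [← d.hq]; exact pow_orderOf_eq_one _
  have hik : Commute i (d.s ^ k) := (I_comm d hi).zpow_right k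
  rw [hk, hik.mul_pow] at h5
  have hmem : (d.s ^ k) ^ 5 ∈ d.I ⊓ zpowers d.s := by
    refine ⟨?_, pow_mem (zpow_mem_zpowers _ _) _⟩
    rw [eq_inv_of_mul_eq_one_right h5]
    exact d.I.inv_mem (d.I.pow_mem hi 5)
  rw [d.Is, mem_bot, ← zpow_natCast, ← zpow_mul, ← orderOf_dvd_iff_zpow_eq_one, d.hs] at hmem
  have h7 : (7 : ℤ) ∣ k := by
    have := hmem
    push_cast at this
    omega
  rw [hk, orderOf_dvd_iff_zpow_eq_one.1 (by rw [d.hs]; exact_mod_cast h7), mul_one]
  exact hi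

theorem Pentad.I_le : d.I ≤ centralizer (d.E : Set G) := by
  haveI : Fact (Nat.Prime 5) := ⟨by norm_num⟩
  set C := centralizer (d.E : Set G) with hC
  set N := normalizer (zpowers d.q : Set G) with hN
  have hI := card_I d
  -- the normalizer of `q` in `I` centralizes `E`
  have hmod := Cent72.inf_normalizer_modEq (K := d.I) (q_mem_I d) d.hq
  rw [hI] at hmod
  have hNI : d.I ⊓ N ≤ C := by
    rintro g ⟨hgI, hgN⟩
    obtain ⟨k, hk⟩ := exists_zpow d (d.normQ hgN) (I_comm d hgI)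
    have hc : Commute g (d.s ^ k) := (I_comm d hgI).zpow_right k
    have h120 : g ^ 120 = 1 := by
      have := orderOf_dvd_natCard (⟨g, hgI⟩ : ↥d.I)
      rw [hI, orderOf_dvd_iff_pow_eq_one] at this
      exact congrArg Subtype.val this
    have h := pow_mem hk 120
    rw [hc.mul_pow, h120, one_mul, ← zpow_natCast, ← zpow_mul] at h
    have h1 := zpow_notMem (by norm_num) d.hs d.s_notMem h
    rw [← orderOf_dvd_iff_zpow_eq_one, d.hs] at h1
    have h7 : d.s ^ k = 1 := by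
      rw [← orderOf_dvd_iff_zpow_eq_one, d.hs]
      push_cast at h1 ⊢
      omega
    rwa [h7, mul_one] at hk
  set H := d.I ⊓ C with hH
  have hq : d.q ∈ H := ⟨q_mem_I d, hNI ⟨q_mem_I d, le_normalizer (mem_zpowers _)⟩⟩
  have hinf : H ⊓ N = d.I ⊓ N :=
    le_antisymm (inf_le_inf_right _ inf_le_left) fun g hg => ⟨⟨hg.1, hNI hg⟩, hg.2⟩
  have hmodH := Cent72.inf_normalizer_modEq (K := H) hq d.hq
  rw [hinf, hmod] at hmodH
  obtain ⟨x, hx, hx3⟩ := d.exists_three
  have h5 : 5 ∣ Nat.card ↥H := by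
    have := orderOf_dvd_natCard (⟨d.q, hq⟩ : ↥H)
    rwa [orderOf_mk, d.hq] at this
  have h3 : 3 ∣ Nat.card ↥H := by
    have := orderOf_dvd_natCard (⟨x, hx⟩ : ↥H)
    rwa [orderOf_mk, hx3] at this
  have hdvd : Nat.card ↥H ∣ 120 := hI ▸ card_dvd_of_le inf_le_left
  have hle := Nat.le_of_dvd (by norm_num) hdvd
  have h120 : Nat.card ↥H = 120 := by
    norm_num at hmodH
    generalize Nat.card ↥H = m at hdvd hle h3 h5 hmodH ⊢
    interval_cases m <;> omega
  exact inf_eq_left.1 (eq_of_le_of_card_ge inf_le_left (by rw [hI, ← hH, h120]))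

theorem Pentad.L_inf_I : d.L ⊓ d.I = ⊥ := by
  rw [eq_bot_iff, ← d.L_inf_cent_s]
  exact inf_le_inf_left _ fun i hi => mem_centralizer_singleton_iff.2 (I_comm d hi).eq

private theorem card_LI : Nat.card ↥(d.L ⊔ d.I) = 2 ^ 15 * 120 := by
  have h := Cent72.card_sup_mul_card_inf (H := d.I) (K := d.L)
    (d.I_le.trans ((centralizer_le_normalizer _).trans d.normalizer_le_L))
  rw [sup_comm, inf_comm, d.L_inf_I, card_bot, mul_one, d.card_L, card_I d] at h
  rw [h]
  rfl

private theorem card_cent : Nat.card ↥(centralizer (d.E : Set G)) = 2 ^ 15 * 120 := by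
  haveI : Fact (Nat.Prime 7) := ⟨by norm_num⟩
  set C := centralizer (d.E : Set G) with hC
  -- the fixed points of `s`
  have hmod : Nat.card ↥C % 7 = 1 := by
    rw [card_modEq_fixed (q := d.s) (p := 7) (by rw [← d.hs]; exact pow_orderOf_eq_one _)
      fun x hx => (mem_normalizer_iff.1 (s_norm_cent d) x).1 hx]
    have hcs := cent_inf d d.I_le
    have e : {x : G // x ∈ C ∧ Commute d.s x} ≃ ↥d.I :=
      { toFun := fun x => ⟨x.1, hcs ⟨x.2.1, mem_centralizer_singleton_iff.2 x.2.2.eq.symm⟩⟩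
        invFun := fun i => ⟨i.1, d.I_le i.2, (I_comm d i.2).symm⟩ }
    rw [Nat.card_congr e, card_I d]
  obtain ⟨m, hm⟩ : 2 ^ 15 * 120 ∣ Nat.card ↥C :=
    card_LI d ▸ card_dvd_of_le (sup_le d.L_le d.I_le)
  have hsmall := d.small
  have h25 := d.five
  have h9 := d.not_nine_dvd
  rw [hm] at hsmall h9 hmod
  have hm0 : m ≠ 0 := by rintro rfl; simp at hmod
  have h5 : ¬ 5 ∣ m := fun h => h25 (by
    refine dvd_trans ?_ ((hm ▸ card_subgroup_dvd_card C))
    obtain ⟨t, rfl⟩ := h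
    exact ⟨2 ^ 18 * 3 * t, by ring⟩)
  have h3 : ¬ 3 ∣ m := fun h => h9 (by
    obtain ⟨t, rfl⟩ := h
    exact ⟨2 ^ 18 * 5 * t, by ring⟩)
  have h4 : ¬ 4 ∣ m := fun h => hsmall (by
    obtain ⟨t, rfl⟩ := h
    exact ⟨15 * t, by ring⟩)
  obtain ⟨k, hk⟩ : ∃ k, m = 2 ^ k := ⟨_, Nat.eq_prime_pow_of_unique_prime_dvd hm0 fun {r} hr hrm => by
    rcases d.prime_dvd hr (hm ▸ dvd_mul_of_dvd_right hrm _) with rfl | rfl | rfl
    · rfl
    · exact absurd hrm h3
    · exact absurd hrm h5⟩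
  subst hk
  rcases k with _ | _ | k
  · rw [hm, pow_zero, mul_one]
  · norm_num at hmod
  · exact absurd ⟨2 ^ k, by ring⟩ h4

theorem Pentad.L_sup_I : d.L ⊔ d.I = centralizer (d.E : Set G) :=
  eq_of_le_of_card_ge (sup_le d.L_le d.I_le) (by rw [card_cent d, card_LI d])

theorem Pentad.card_normalizer :
    Nat.card ↥(normalizer (d.E : Set G)) = 2 ^ 15 * 120 * 168 := by
  have h := Cent72.card_sup_mul_card_inf (H := d.J) (K := centralizer (d.E : Set G))
    (d.JE.trans (norm_cent_le _))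
  rw [d.centJ, d.cardE, d.cardJ, card_cent d] at h
  have hle : d.J ⊔ centralizer (d.E : Set G) ≤ normalizer (d.E : Set G) :=
    sup_le d.JE (centralizer_le_normalizer _)
  have h1 := Nat.le_of_dvd Nat.card_pos (card_dvd_of_le hle)
  have h2 := Cent72.card_normalizer_le_eight d.sqE d.cardE
  rw [card_cent d] at h2
  norm_num at h h1 h2 ⊢
  omega

/-- The centralizer of `s` normalizes `E`. -/
private theorem cent_s_le : centralizer ({d.s} : Set G) ≤ normalizer (d.E : Set G) := by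
  rw [d.cs]
  exact sup_le (d.I_le.trans (centralizer_le_normalizer _)) (zpowers_le.2 (s_norm d))

theorem Pentad.normalizer_s_le :
    normalizer (zpowers d.s : Set G) ≤ normalizer (d.E : Set G) := by
  haveI : Fact (Nat.Prime 7) := ⟨by norm_num⟩
  set S := zpowers d.s with hS
  set N := normalizer (S : Set G) with hN
  have hCN : centralizer ({d.s} : Set G) ≤ N := by
    refine fun g hg => centralizer_le_normalizer _ (mem_centralizer_iff.2 ?_)
    rintro x ⟨k, rfl⟩
    exact ((show Commute g d.s from mem_centralizer_singleton_iff.1 hg).zpow_right k).eq.symm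
  have hcardC : Nat.card ↥(centralizer ({d.s} : Set G)) = 840 := by
    have h := Cent72.card_sup_mul_card_inf (H := d.I) (K := S) (le_trans (fun i hi =>
      mem_centralizer_singleton_iff.2 (I_comm d hi).eq) hCN)
    rw [← d.cs, d.Is, card_bot, mul_one, card_I d, Nat.card_zpowers, d.hs] at h
    omega
  set X := N ⊓ normalizer (d.E : Set G) with hX
  have hCX : centralizer ({d.s} : Set G) ≤ X := le_inf hCN (cent_s_le d)
  have hne : ¬ X ≤ centralizer ({d.s} : Set G) := by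
    intro hle
    have hmod := Cent72.inf_normalizer_modEq (K := d.J) d.sJ d.hs
    have heq : d.J ⊓ N = S := by
      refine le_antisymm ?_ (le_inf (zpowers_le.2 d.sJ) le_normalizer)
      rintro g ⟨hgJ, hgN⟩
      have hgs : Commute g d.s :=
        mem_centralizer_singleton_iff.1 (hle ⟨hgN, d.JE hgJ⟩)
      obtain ⟨k, hk⟩ := exists_zpow d (d.JE hgJ) hgs
      have hE : g * d.s ^ k ∈ d.E := d.centJ.le ⟨mul_mem hgJ (zpow_mem d.sJ k), hk⟩
      have hbot : g * d.s ^ k ∈ d.L ⊓ centralizer ({d.s} : Set G) :=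
        ⟨d.E_le_L hE, mem_centralizer_singleton_iff.2
          (hgs.mul_left ((Commute.refl d.s).zpow_left k)).eq⟩
      rw [d.L_inf_cent_s, mem_bot] at hbot
      rw [eq_inv_of_mul_eq_one_left hbot]
      exact inv_mem (zpow_mem_zpowers _ _)
    rw [← hN, heq, hS, Nat.card_zpowers, d.hs, d.cardJ] at hmod
    norm_num at hmod
  obtain ⟨a, ha⟩ : 840 ∣ Nat.card ↥X := hcardC ▸ card_dvd_of_le hCX
  obtain ⟨b, hb⟩ : Nat.card ↥X ∣ 2520 := d.cardNs ▸ card_dvd_of_le inf_le_left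
  have hlt : 840 < Nat.card ↥X := by
    by_contra hle
    exact hne (eq_of_le_of_card_ge hCX (by omega)).ge
  rw [ha, mul_assoc] at hb
  have hab : a * b = 3 := by omega
  have ha3 : a = 3 := by
    rcases (Nat.dvd_prime Nat.prime_three).1 ⟨b, hab.symm⟩ with h | h <;> omega
  exact inf_eq_left.1 (eq_of_le_of_card_ge inf_le_left (by rw [d.cardNs, ← hX, ha, ha3]))

private theorem exists_sylow_aux {p : ℕ} [hp : Fact p.Prime] {g : G} (hg : orderOf g = p)
    (hsq : ¬ p * p ∣ Nat.card G) : ∃ P : Sylow p G, (P : Subgroup G) = zpowers g := by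
  have hc : Nat.card ↥(zpowers g) = p ^ 1 := by rw [Nat.card_zpowers, hg, pow_one]
  obtain ⟨P, hP⟩ := (IsPGroup.of_card hc).exists_le_sylow
  obtain ⟨n, hn⟩ := IsPGroup.iff_card.1 P.2
  refine ⟨P, (eq_of_le_of_card_ge hP ?_).symm⟩
  rw [hn, hc]
  refine Nat.pow_le_pow_right hp.out.pos ?_
  by_contra hlt
  refine hsq (dvd_trans ?_ (card_subgroup_dvd_card (P : Subgroup G)))
  rw [hn, ← pow_two]
  exact pow_dvd_pow p (by omega)

theorem Pentad.exists_sylow :
    (∃ Q : Sylow 5 G, normalizer ((Q : Subgroup G) : Set G) ≤ normalizer (d.L : Set G)) ∧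
    (∃ S : Sylow 7 G, normalizer ((S : Subgroup G) : Set G) ≤ normalizer (d.L : Set G)) := by
  haveI : Fact (Nat.Prime 5) := ⟨by norm_num⟩
  haveI : Fact (Nat.Prime 7) := ⟨by norm_num⟩
  obtain ⟨Q, hQ⟩ := exists_sylow_aux d.hq d.five
  obtain ⟨S, hS⟩ := exists_sylow_aux d.hs d.seven
  refine ⟨⟨Q, ?_⟩, ⟨S, ?_⟩⟩
  · rw [hQ]; exact d.normQ.trans d.normalizer_le_L
  · rw [hS]; exact d.normalizer_s_le.trans d.normalizer_le_L

end CfsgLib.J4Pentad
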