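import Cfsg.Agent.J4Pentad49.Basic
import Cfsg.Agent.J4Pentad.Lbuild

/-!
The group `L` of the configuration `Pentad`: special of order `2^15`, with the same normaliser
as `E`.
-/

set_option autoImplicit false

universe u

namespace CfsgLib.J4Pentad

variable {G : Type u} [Group G] [Finite G] (d : Pentad G)

omit [Finite G] in
theorem Pentad.L_le : d.L ≤ Subgroup.centralizer (d.E : Set G) := iSup_le fun _ => inf_le_right

theorem Pentad.le_L_aux (a : G) (ha : a ∈ d.E) (ha1 : a ≠ 1) :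
    Cfsg.twoCoreOfCentralizer a ⊓ Subgroup.centralizer (d.E : Set G) ≤ d.L :=
  le_iSup (fun a : {a : G // a ∈ d.E ∧ a ≠ 1} =>
    Cfsg.twoCoreOfCentralizer (a : G) ⊓ Subgroup.centralizer (d.E : Set G)) ⟨a, ha, ha1⟩

omit [Finite G] in
theorem Pentad.z_ne_one : d.z ≠ 1 := fun h => by
  have := d.hz
  rw [h, orderOf_one] at this
  norm_num at this

omit [Finite G] in
theorem Pentad.E_comm : ∀ a ∈ d.E, ∀ b ∈ d.E, a * b = b * a := fun a ha b hb => by
  have inv : ∀ x ∈ d.E, x⁻¹ = x := fun x hx => inv_eq_of_mul_eq_one_right (d.sqE x hx)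
  rw [← inv _ (mul_mem ha hb), mul_inv_rev, inv a ha, inv b hb]

omit [Finite G] in
theorem Pentad.elemE : Cfsg.IsElementaryAbelian 2 d.E :=
  ⟨⟨⟨fun a b => Subtype.ext (d.E_comm a a.2 b b.2)⟩⟩, fun a ha => by rw [pow_two]; exact d.sqE a ha⟩

theorem Pentad.E_le_L : d.E ≤ d.L := fun x hx =>
  d.le_L_aux d.z d.zE d.z_ne_one ⟨d.core d.z d.zE d.z_ne_one hx,
    Subgroup.mem_centralizer_iff.2 fun y hy => d.E_comm y hy x hx⟩

omit [Finite G] in
theorem twoCore_eq_pCoreOf (a : G) :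
    Cfsg.twoCoreOfCentralizer a = Cfsg.pCoreOf 2 (Subgroup.centralizer ({a} : Set G)) := rfl

theorem conj_twoCore_le {a g x : G} (hx : x ∈ Cfsg.twoCoreOfCentralizer a) :
    g * x * g⁻¹ ∈ Cfsg.twoCoreOfCentralizer (g * a * g⁻¹) := by
  rw [twoCore_eq_pCoreOf] at hx ⊢
  have hmap : (Cfsg.pCoreOf 2 (Subgroup.centralizer ({a} : Set G))).map
      (MulAut.conj g).toMonoidHom ≤
      Cfsg.pCoreOf 2 (Subgroup.centralizer ({g * a * g⁻¹} : Set G)) := by
    refine le_pCoreOf_of_normal ?_ ?_ ((isPGroup_two_pCoreOf _).map _)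
    · rintro _ ⟨y, hy, rfl⟩
      have hy' : y * a = a * y := Subgroup.mem_centralizer_singleton_iff.1 (pCoreOf_two_le _ hy)
      refine Subgroup.mem_centralizer_singleton_iff.2 ?_
      show g * y * g⁻¹ * (g * a * g⁻¹) = g * a * g⁻¹ * (g * y * g⁻¹)
      calc g * y * g⁻¹ * (g * a * g⁻¹) = g * (y * a) * g⁻¹ := by group
      _ = g * (a * y) * g⁻¹ := by rw [hy']
      _ = _ := by group
    · intro c hc
      have hc' : g⁻¹ * c * g ∈ Subgroup.centralizer ({a} : Set G) := by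
        have h : c * (g * a * g⁻¹) = g * a * g⁻¹ * c := Subgroup.mem_centralizer_singleton_iff.1 hc
        refine Subgroup.mem_centralizer_singleton_iff.2 ?_
        calc g⁻¹ * c * g * a = g⁻¹ * (c * (g * a * g⁻¹)) * g := by group
        _ = g⁻¹ * (g * a * g⁻¹ * c) * g := by rw [h]
        _ = _ := by group
      refine Subgroup.mem_normalizer_fintype (S := (((Cfsg.pCoreOf 2
        (Subgroup.centralizer ({a} : Set G))).map (MulAut.conj g).toMonoidHom : Subgroup G) : Set G))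
        ?_
      rintro _ ⟨y, hy, rfl⟩
      obtain ⟨y', hy', rfl⟩ := hy
      have hn : (Cfsg.pCore 2 ↥(Subgroup.centralizer ({a} : Set G))).Normal :=
        Subgroup.sSup_normal _ fun _ h => h.1
      refine ⟨_, ⟨⟨_, hc'⟩ * y' * (⟨_, hc'⟩ : ↥(Subgroup.centralizer ({a} : Set G)))⁻¹,
        hn.conj_mem y' hy' _, rfl⟩, ?_⟩
      simp only [MulEquiv.coe_toMonoidHom, MulAut.conj_apply, Subgroup.subtype_apply, Subgroup.coe_mul,
        Subgroup.coe_inv]
      group
  exact hmap ⟨x, hx, rfl⟩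

theorem Pentad.normalizer_le_L :
    Subgroup.normalizer (d.E : Set G) ≤ Subgroup.normalizer (d.L : Set G) := by
  intro g hg
  have hE : ∀ e, e ∈ d.E ↔ g * e * g⁻¹ ∈ d.E := Subgroup.mem_normalizer_iff.1 hg
  have hle : d.L ≤ d.L.comap (MulAut.conj g).toMonoidHom := by
    refine iSup_le fun a => ?_
    intro x hx
    refine d.le_L_aux (g * a * g⁻¹) ((hE _).1 a.2.1) (fun h => a.2.2 (conj_eq_one_iff.1 h))
      ⟨conj_twoCore_le hx.1, ?_⟩
    refine Subgroup.mem_centralizer_iff.2 fun e he => ?_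
    show e * (g * x * g⁻¹) = g * x * g⁻¹ * e
    have he' : g⁻¹ * e * g ∈ d.E := by
      rw [hE]
      simpa [mul_assoc] using he
    calc e * (g * x * g⁻¹) = g * ((g⁻¹ * e * g) * x) * g⁻¹ := by group
    _ = g * (x * (g⁻¹ * e * g)) * g⁻¹ := by rw [Subgroup.mem_centralizer_iff.1 hx.2 _ he']
    _ = g * x * g⁻¹ * e := by group
  exact Subgroup.mem_normalizer_fintype (S := (d.L : Set G)) fun x hx => hle hx

theorem Pentad.isPGroup_L : IsPGroup 2 ↥d.L := by
  refine (isPGroup_two_pCoreOf (Subgroup.centralizer (d.E : Set G))).to_le (iSup_le fun a => ?_)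
  have ha : Subgroup.centralizer (d.E : Set G) ≤ Subgroup.centralizer ({(a : G)} : Set G) :=
    fun x hx => Subgroup.mem_centralizer_singleton_iff.2
      (Subgroup.mem_centralizer_iff.1 hx a a.2.1).symm
  refine le_pCoreOf_of_normal inf_le_right (fun c hc => ?_) ?_
  · refine Subgroup.mem_normalizer_fintype (S := ((Cfsg.twoCoreOfCentralizer (a : G) ⊓
      Subgroup.centralizer (d.E : Set G) : Subgroup G) : Set G)) fun x hx => ⟨?_, ?_⟩
    · have h := conj_twoCore_le (g := c) hx.1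
      rwa [show c * (a : G) * c⁻¹ = a by
        rw [Subgroup.mem_centralizer_singleton_iff.1 (ha hc), mul_inv_cancel_right]] at h
    · exact Subgroup.mul_mem _ (Subgroup.mul_mem _ hc hx.2) (Subgroup.inv_mem _ hc)
  · rw [twoCore_eq_pCoreOf]
    exact (isPGroup_two_pCoreOf _).to_le inf_le_left

omit [Finite G] in
theorem Pentad.commute_q_J {j : G} (hj : j ∈ d.J) : Commute j d.q := by
  have h : j ∈ Subgroup.centralizer ({d.q} : Set G) := d.cq.symm ▸ Subgroup.mem_sup_left hj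
  exact Subgroup.mem_centralizer_singleton_iff.1 h

omit [Finite G] in
theorem Pentad.commute_q_E {e : G} (he : e ∈ d.E) : Commute d.q e :=
  (d.commute_q_J (d.EJ he)).symm

omit [Finite G] in
/-- The elements of `C(E)` commuting with `q` are those of `E × ⟨q⟩`. -/
theorem Pentad.cent_q_E {x : G} (hx : x ∈ Subgroup.centralizer (d.E : Set G)) (hc : Commute d.q x) :
    ∃ e ∈ d.E, ∃ i : ℤ, x = e * d.q ^ i := by
  have h : x ∈ d.J ⊔ Subgroup.zpowers d.q := by
    rw [← d.cq]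
    exact Subgroup.mem_centralizer_singleton_iff.2 hc.eq.symm
  rw [← SetLike.mem_coe, Subgroup.coe_mul_of_left_le_normalizer_right d.J (Subgroup.zpowers d.q)
    (fun j hj => by
      rw [Subgroup.mem_normalizer_iff]
      intro y
      constructor
      · rintro ⟨k, rfl⟩
        rw [((d.commute_q_J hj).zpow_right k).eq, mul_inv_cancel_right]
        exact ⟨k, rfl⟩
      · rintro ⟨k, hk⟩
        refine ⟨k, ?_⟩
        show d.q ^ k = y
        have hk' : d.q ^ k = j * y * j⁻¹ := hk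
        calc d.q ^ k = j⁻¹ * (j * d.q ^ k) := by group
        _ = j⁻¹ * (d.q ^ k * j) := by rw [((d.commute_q_J hj).zpow_right k).eq]
        _ = y := by rw [hk']; group)] at h
  obtain ⟨j, hj, y, hy, rfl⟩ := h
  obtain ⟨i, rfl⟩ := hy
  refine ⟨j, ?_, i, rfl⟩
  rw [← d.centJ]
  refine ⟨hj, ?_⟩
  have hqi : d.q ^ i ∈ Subgroup.centralizer (d.E : Set G) := zpow_mem
    (Subgroup.mem_centralizer_iff.2 fun e he => (d.commute_q_E he).eq.symm) i
  have := mul_mem hx (inv_mem hqi)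
  rwa [mul_inv_cancel_right] at this

theorem Pentad.q_fix {x : G} (hx : x ∈ d.L) (hc : Commute d.q x) : x ∈ d.E := by
  obtain ⟨e, he, i, hi⟩ := d.cent_q_E (d.L_le hx) hc
  obtain ⟨k, hk⟩ := d.isPGroup_L ⟨x, hx⟩
  have hk' : x ^ 2 ^ k = 1 := congrArg Subtype.val hk
  have hk2 : x ^ 2 ^ (k + 1) = 1 := by rw [pow_succ, pow_mul, hk', one_pow]
  have he2 : e ^ 2 ^ (k + 1) = 1 := by rw [pow_succ', pow_mul, pow_two, d.sqE e he, one_pow]
  rw [hi, ((d.commute_q_E he).symm.zpow_right i).mul_pow, he2, one_mul] at hk2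
  haveI : Fact (Nat.Prime 5) := ⟨by norm_num⟩
  have hqi : d.q ^ i = 1 := by
    have h1 : orderOf (d.q ^ i) ∣ 2 ^ (k + 1) := orderOf_dvd_of_pow_eq_one hk2
    have h2 : orderOf (d.q ^ i) ∣ 5 := orderOf_dvd_of_pow_eq_one (by
      rw [← zpow_natCast, ← zpow_mul, mul_comm, zpow_mul, zpow_natCast, ← d.hq,
        pow_orderOf_eq_one, one_zpow])
    have h := Nat.dvd_gcd h1 h2
    rw [Nat.Coprime.gcd_eq_one (Nat.Coprime.pow_left _ (by norm_num)), Nat.dvd_one] at h
    exact orderOf_eq_one_iff.1 h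
  rw [hi, hqi, mul_one]
  exact he

omit [Finite G] in
theorem Pentad.q_mem_cent_s : d.q ∈ Subgroup.centralizer ({d.s} : Set G) :=
  Subgroup.mem_centralizer_singleton_iff.2 (d.commute_q_J d.sJ).eq.symm

theorem Pentad.two_subgroup_cent_s {U : Subgroup G} (hU : U ≤ Subgroup.centralizer ({d.s} : Set G))
    (h2 : IsPGroup 2 ↥U) (hinv : ∀ x ∈ U, d.q * x * d.q⁻¹ ∈ U) : U = ⊥ := by
  have hC : Subgroup.centralizer (Subgroup.zpowers d.s : Set G) =
      Subgroup.centralizer ({d.s} : Set G) := by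
    ext x
    rw [Subgroup.mem_centralizer_singleton_iff, Subgroup.mem_centralizer_iff]
    refine ⟨fun h => (h d.s (Subgroup.mem_zpowers _)).symm, fun h y hy => ?_⟩
    obtain ⟨k, rfl⟩ := hy
    exact ((show Commute x d.s from h).zpow_right k).eq.symm
  have hIC : d.I ≤ Subgroup.centralizer ({d.s} : Set G) := d.cs.symm ▸ le_sup_left
  refine two_invariant_eq_bot (S := Subgroup.zpowers d.s) (by rw [Nat.card_zpowers, d.hs])
    ⟨?_, hC.symm ▸ hIC, fun a ha b hb => ?_, by rw [inf_comm]; exact d.Is,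
      by rw [hC, d.cs, sup_comm]⟩ d.eI d.hq (hC.symm ▸ d.q_mem_cent_s) (hC.symm ▸ hU) h2 hinv
  · rw [hC, Subgroup.zpowers_le, Subgroup.mem_centralizer_singleton_iff]
  · obtain ⟨k, rfl⟩ := ha
    exact ((show Commute b d.s from
      Subgroup.mem_centralizer_singleton_iff.1 (hIC hb)).zpow_right k).eq.symm

theorem Pentad.s_fix {x : G} (hx : x ∈ d.L) (hc : Commute d.s x) : x = 1 := by
  have hqN : d.q ∈ Subgroup.normalizer (d.E : Set G) :=
    Subgroup.mem_normalizer_fintype (S := (d.E : Set G)) fun e he => by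
      rwa [(d.commute_q_E he).eq, mul_inv_cancel_right]
  have hqL := d.normalizer_le_L hqN
  have h := d.two_subgroup_cent_s (U := d.L ⊓ Subgroup.centralizer ({d.s} : Set G)) inf_le_right
    (d.isPGroup_L.to_le inf_le_left) fun y hy => ⟨(Subgroup.mem_normalizer_iff.1 hqL y).1 hy.1,
      Subgroup.mul_mem _ (Subgroup.mul_mem _ d.q_mem_cent_s hy.2)
        (Subgroup.inv_mem _ d.q_mem_cent_s)⟩
  have hx' : x ∈ d.L ⊓ Subgroup.centralizer ({d.s} : Set G) :=
    ⟨hx, Subgroup.mem_centralizer_singleton_iff.2 hc.eq.symm⟩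
  rw [h, Subgroup.mem_bot] at hx'
  exact hx'

theorem Pentad.lDataL : LData d.L d.E d.q d.s := by
  refine ⟨d.isPGroup_L, d.E_le_L, d.elemE, d.cardE, d.L_le, ?_, ?_, ?_,
    d.normalizer_le_L (d.JE d.sJ), fun e he => d.commute_q_E he,
    fun e he => (Subgroup.mem_normalizer_iff.1 (d.JE d.sJ) e).1 he,
    fun x hx hc => d.q_fix hx hc, fun x hx hc => d.s_fix hx hc, fun hb => ?_, ?_⟩
  · rw [← d.hq]; exact pow_orderOf_eq_one _
  · rw [← d.hs]; exact pow_orderOf_eq_one _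
  · exact d.normalizer_le_L (Subgroup.mem_normalizer_fintype (S := (d.E : Set G)) fun e he => by
      rwa [(d.commute_q_E he).eq, mul_inv_cancel_right])
  · exact d.small ((pow_dvd_pow 2 (by norm_num : 20 ≤ 27)).trans
      (hb.trans (Subgroup.card_dvd_of_le d.L_le)))
  · obtain ⟨a, ha, b, hb, hab⟩ := d.nonab
    exact ⟨a, d.le_L_aux d.z d.zE d.z_ne_one ha, b, d.le_L_aux d.z d.zE d.z_ne_one hb, hab⟩

theorem Pentad.card_L : Nat.card d.L = 2 ^ 15 := d.lDataL.card_L

theorem Pentad.special_L : Cfsg.IsSpecial 2 ↥d.L := d.lDataL.isSpecial.1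

theorem Pentad.card_center_L : Nat.card (Subgroup.center ↥d.L) = 8 := d.lDataL.isSpecial.2.2

theorem Pentad.normalizer_L_le :
    Subgroup.normalizer (d.L : Set G) ≤ Subgroup.normalizer (d.E : Set G) := by
  intro g hg
  refine Subgroup.mem_normalizer_fintype (S := (d.E : Set G)) fun e he => ?_
  have hgL : ∀ y : ↥d.L, g * (y : G) * g⁻¹ ∈ d.L := fun y =>
    (Subgroup.mem_normalizer_iff.1 hg y).1 y.2
  have hec := d.lDataL.le_center (show (⟨e, d.E_le_L he⟩ : ↥d.L) ∈ d.E.subgroupOf d.L from he)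
  have hc : (⟨g * e * g⁻¹, hgL ⟨e, d.E_le_L he⟩⟩ : ↥d.L) ∈ Subgroup.center ↥d.L := by
    refine Subgroup.mem_center_iff.2 fun y => Subtype.ext ?_
    have hy : g⁻¹ * (y : G) * g ∈ d.L := by
      rw [Subgroup.mem_normalizer_iff.1 hg]
      simp [mul_assoc]
    have he' := congrArg Subtype.val (Subgroup.mem_center_iff.1 hec ⟨_, hy⟩)
    simp only [Subgroup.coe_mul] at he' ⊢
    calc (y : G) * (g * e * g⁻¹) = g * (g⁻¹ * y * g * e) * g⁻¹ := by group
    _ = g * (e * (g⁻¹ * y * g)) * g⁻¹ := by rw [he']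
    _ = g * e * g⁻¹ * y := by group
  rw [d.lDataL.center_eq] at hc
  exact hc

theorem Pentad.L_inf_cent_q : d.L ⊓ Subgroup.centralizer ({d.q} : Set G) = d.E :=
  le_antisymm (fun _ hx => d.q_fix hx.1 (Subgroup.mem_centralizer_singleton_iff.1 hx.2).symm)
    fun _ he => ⟨d.E_le_L he,
      Subgroup.mem_centralizer_singleton_iff.2 (d.commute_q_E he).eq.symm⟩

theorem Pentad.L_inf_cent_s : d.L ⊓ Subgroup.centralizer ({d.s} : Set G) = ⊥ :=
  le_bot_iff.1 fun _ hx => Subgroup.mem_bot.2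
    (d.s_fix hx.1 (Subgroup.mem_centralizer_singleton_iff.1 hx.2).symm)

end CfsgLib.J4Pentad
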