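/-
The factor `L₃(2)` of the 2-local of pentad type: in the centralizer of an element of order three of
`C(E)`, which is a triple cover of `M22` extended by an involution, the complement of the image of
`E` in its normalizer lifts.
-/
import Cfsg.Agent.J4Pentad49.Cent
import Cfsg.Agent.J4Pentad49.Lgroup
import Cfsg.Agent.J4Pentad49.Odd
import Cfsg.Agent.Jf18.Invol
import Cfsg.Agent.J4Local60.EightSplit
import Cfsg.Agent.SmallRadical.Modules
import Mathlib.GroupTheory.Transfer

set_option autoImplicit false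
set_option linter.unusedSectionVars false

namespace CfsgLib.J4Pentad.KTwo

open CfsgLib.J4Type67 CfsgLib.SmallRadical
open scoped commutatorElement

universe u

/-! ### Permutations of five letters -/

theorem s5_inverter :
    ∀ σ : Equiv.Perm (Fin 5), σ ^ 3 = 1 → ∃ τ : Equiv.Perm (Fin 5), τ * σ * τ⁻¹ = σ⁻¹ := by
  decide +kernel

theorem s5_cent :
    ∀ τ : Equiv.Perm (Fin 5), τ ^ 3 = 1 → τ ≠ 1 → ∀ σ : Equiv.Perm (Fin 5), σ ^ 15 = 1 →
      σ * τ = τ * σ → σ = 1 ∨ σ = τ ∨ σ = τ ^ 2 := by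
  decide +kernel

/-! ### General facts -/

theorem pow_index_mem {X : Type*} [Group X] [Finite X] (S : Subgroup X) {g : X}
    (hc : ∀ y : X, Commute g y) (hg : g ∈ commutator X) : g ^ S.index ∈ ⁅S, S⁆ := by
  let τ : X →* Abelianization S := MonoidHom.transfer (Abelianization.of (G := S))
  have h1 : τ g = 1 := Abelianization.commutator_subset_ker τ hg
  have key : ∀ (k : ℕ) (g₀ : X), g₀⁻¹ * g ^ k * g₀ ∈ S → g₀⁻¹ * g ^ k * g₀ = g ^ k :=
    fun k g₀ _ => by
      rw [mul_assoc, ((hc g₀).pow_left k).eq, ← mul_assoc, inv_mul_cancel, one_mul]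
  have e := MonoidHom.transfer_eq_pow (Abelianization.of (G := S)) g key
  have e' : Abelianization.of (G := S) ⟨g ^ S.index, MonoidHom.transfer_eq_pow_aux g key⟩ = 1 := by
    rw [← e]; exact h1
  rw [← MonoidHom.mem_ker, Abelianization.ker_of] at e'
  rw [← Subgroup.map_subtype_commutator]
  exact ⟨_, e', rfl⟩

theorem eq_one_of_pow_coprime {X : Type*} [Group X] {g : X} {m n : ℕ} (hm : g ^ m = 1)
    (hn : g ^ n = 1) (h : Nat.Coprime m n) : g = 1 := by
  have h1 : orderOf g ∣ Nat.gcd m n :=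
    Nat.dvd_gcd (orderOf_dvd_of_pow_eq_one hm) (orderOf_dvd_of_pow_eq_one hn)
  rw [Nat.Coprime] at h
  rw [h, Nat.dvd_one, orderOf_eq_one_iff] at h1
  exact h1

theorem card_prod_le {X : Type*} [Group X] [Finite X] {A B : Subgroup X}
    (hle : B ≤ Subgroup.normalizer (A : Set X)) :
    Nat.card ↥(A ⊔ B) ≤ Nat.card A * Nat.card B := by
  rw [← Nat.card_prod]
  refine Nat.card_le_card_of_surjective
    (fun p : A × B => (⟨(p.1 : X) * p.2,
      mul_mem (Subgroup.mem_sup_left p.1.2) (Subgroup.mem_sup_right p.2.2)⟩ : ↥(A ⊔ B))) ?_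
  rintro ⟨g, hg⟩
  rw [← SetLike.mem_coe, Subgroup.coe_mul_of_right_le_normalizer_left _ _ hle] at hg
  obtain ⟨a, ha, b, hb, rfl⟩ := hg
  exact ⟨(⟨a, ha⟩, ⟨b, hb⟩), rfl⟩

theorem exists_hom_sl32 {W : Type*} [Group W] [Finite W] (h2 : ∀ w : W, w * w = 1)
    (h8 : Nat.card W = 8) : ∃ φ : MulAut W →* SL32, Function.Injective φ := by
  obtain ⟨e, he⟩ := exists_coord h2 h8
  have hs : ∀ x y, e.symm (x + y) = e.symm x * e.symm y := fun x y => by
    rw [Equiv.symm_apply_eq, he, e.apply_symm_apply, e.apply_symm_apply]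
  let L : MulAut W → ((Fin 3 → ZMod 2) →ₗ[ZMod 2] (Fin 3 → ZMod 2)) := fun σ =>
    (AddMonoidHom.mk' (fun x => e (σ (e.symm x))) fun x y => by
      rw [hs, _root_.map_mul, he]).toZModLinearMap 2
  have hL : ∀ σ x, L σ x = e (σ (e.symm x)) := fun σ x => rfl
  let A : MulAut W → Matrix (Fin 3) (Fin 3) (ZMod 2) := fun σ => LinearMap.toMatrix' (L σ)
  have hA : ∀ σ x, (A σ).mulVec x = e (σ (e.symm x)) := fun σ x => by
    rw [← hL]
    exact LinearMap.toMatrix'_mulVec (L σ) x
  have hmul : ∀ σ τ, A (σ * τ) = A σ * A τ := fun σ τ => by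
    refine Matrix.ext_iff_mulVec.2 fun x => ?_
    rw [← Matrix.mulVec_mulVec, hA, hA, hA, MulAut.mul_apply, e.symm_apply_apply]
  have hone : A 1 = 1 := by
    refine Matrix.ext_iff_mulVec.2 fun x => ?_
    rw [hA, MulAut.one_apply, e.apply_symm_apply, Matrix.one_mulVec]
  have hdet : ∀ σ, (A σ).det = 1 := by
    intro σ
    have h1 : (A σ).det * (A σ⁻¹).det = 1 := by
      rw [← Matrix.det_mul, ← hmul, mul_inv_cancel, hone, Matrix.det_one]
    exact (by decide : ∀ a b : ZMod 2, a * b = 1 → a = 1) _ _ h1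
  refine ⟨MonoidHom.mk' (fun σ => ⟨A σ, hdet σ⟩) fun σ τ => Subtype.ext (hmul σ τ),
    fun σ τ e' => MulEquiv.ext fun w => e.injective ?_⟩
  have h : A σ = A τ := congrArg Subtype.val e'
  rw [← e.symm_apply_apply w, ← hA, h, hA]

/-- The first involution of a dihedral subgroup of order eight. -/
def ia : SL32 := ⟨!![1, 1, 0; 0, 1, 0; 0, 0, 1], by decide⟩

/-- The second involution of a dihedral subgroup of order eight. -/
def ib : SL32 := ⟨!![1, 0, 0; 0, 1, 1; 0, 0, 1], by decide⟩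

theorem dihedral_facts : ia * ia = 1 ∧ ib * ib = 1 ∧ ia ≠ 1 ∧ ib ≠ 1 ∧ (ia * ib) ^ 4 = 1 ∧
    (ia * ib) ^ 2 ≠ 1 ∧
    [1, ia * ib, (ia * ib) ^ 2, (ia * ib) ^ 3, ia, ia * ib * ia, (ia * ib) ^ 2 * ia,
      (ia * ib) ^ 3 * ia].Nodup := by
  decide +kernel

theorem commutator_sl32 : commutator SL32 = ⊤ := by
  haveI := sl32_simple
  have hn : (commutator SL32).Normal := inferInstance
  refine hn.eq_bot_or_eq_top.resolve_left fun h => ?_
  rw [commutator_def, Subgroup.commutator_eq_bot_iff_le_centralizer] at h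
  have h' : ia * ib = ib * ia :=
    Subgroup.mem_centralizer_iff.1 (h (Subgroup.mem_top ib)) ia (Subgroup.mem_top ia)
  exact absurd h' (by decide +kernel)

/-! ### Lifting a subgroup `L₃(2)` of `M22` -/

variable {G : Type u} [Group G] [Finite G] (c : Jf18.Ctx G)

theorem ker_form {u : c.C} (h : c.sig u = 1) :
    ∃ (t : G) (i : ℤ), (t = 1 ∨ t = c.z) ∧ (u : G) = t * c.p ^ i := by
  have h' := c.sig_eq_one.1 h
  have hle : Subgroup.zpowers c.p ≤ Subgroup.normalizer (Subgroup.zpowers c.z : Set G) := by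
    refine le_trans ?_ (Subgroup.centralizer_le_normalizer _)
    rw [Subgroup.zpowers_le, Subgroup.mem_centralizer_iff]
    rintro _ ⟨i, rfl⟩
    exact ((Jf18.mem_cz.1 c.p_mem_H).zpow_right i).symm.eq
  rw [← SetLike.mem_coe, Subgroup.coe_mul_of_right_le_normalizer_left _ _ hle] at h'
  obtain ⟨t, ht, _, ⟨i, rfl⟩, e⟩ := h'
  exact ⟨t, i, (c.mem_zpowers_z).1 ht, e.symm⟩

theorem sig_z : c.sig ⟨c.z, c.z_mem_cent_p⟩ = 1 :=
  c.sig_eq_one.2 (Subgroup.mem_sup_left (Subgroup.mem_zpowers _))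

theorem sig_p : c.sig ⟨c.p, c.p_mem_C⟩ = 1 :=
  c.sig_eq_one.2 (Subgroup.mem_sup_right (Subgroup.mem_zpowers _))

theorem central_ker {u : c.C} (h : c.sig u = 1) (y : c.C) : Commute u y := by
  obtain ⟨t, i, ht, hu⟩ := ker_form c h
  obtain ⟨hyz, hyp⟩ := c.mem_C.1 y.2
  refine Subtype.ext ?_
  show (u : G) * y = y * u
  rw [hu]
  rcases ht with rfl | rfl
  · exact ((Commute.one_left _).mul_left (hyp.symm.zpow_left i)).eq
  · exact (hyz.symm.mul_left (hyp.symm.zpow_left i)).eq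

theorem card_ker : Nat.card c.sig.ker = 6 := by
  haveI : Fact (Nat.Prime 2) := ⟨Nat.prime_two⟩
  haveI : Fact (Nat.Prime 3) := ⟨Nat.prime_three⟩
  refine le_antisymm ?_ (Nat.le_of_dvd Nat.card_pos ?_)
  · let Z : c.C := ⟨c.z, c.z_mem_cent_p⟩
    let P : c.C := ⟨c.p, c.p_mem_C⟩
    have hsub : ∀ u : c.sig.ker, ∃ a : Fin 2, ∃ b : Fin 3, (u : c.C) = Z ^ a.1 * P ^ b.1 := by
      rintro ⟨u, hu⟩
      obtain ⟨t, i, ht, he⟩ := ker_form c hu
      have hi : c.p ^ i = c.p ^ (i % 3).toNat := by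
        rw [← zpow_natCast, Int.toNat_of_nonneg (Int.emod_nonneg _ (by norm_num))]
        have h3 : ((orderOf c.p : ℕ) : ℤ) = 3 := by rw [c.orderOf_p]; rfl
        rw [← h3, zpow_mod_orderOf]
      have hlt : (i % 3).toNat < 3 := by omega
      rcases ht with rfl | rfl
      · exact ⟨0, ⟨_, hlt⟩, Subtype.ext (by simp [P, he, hi])⟩
      · exact ⟨1, ⟨_, hlt⟩, Subtype.ext (by simp [Z, P, he, hi])⟩
    choose a b hab using hsub
    have := Nat.card_le_card_of_injective (fun u => (a u, b u)) fun u v e => by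
      simp only [Prod.mk.injEq] at e
      exact Subtype.ext (by rw [hab u, hab v, e.1, e.2])
    simpa using this
  · show 2 * 3 ∣ _
    refine Nat.Coprime.mul_dvd_of_dvd_of_dvd (by norm_num) ?_ ?_
    · exact (c.orderOf_z.symm.trans (Subgroup.orderOf_coe (⟨c.z, c.z_mem_cent_p⟩ : c.C))).dvd.trans
        (Subgroup.orderOf_dvd_natCard _ (MonoidHom.mem_ker.2 (sig_z c)))
    · exact (c.orderOf_p.symm.trans (Subgroup.orderOf_coe (⟨c.p, c.p_mem_C⟩ : c.C))).dvd.trans
        (Subgroup.orderOf_dvd_natCard _ (MonoidHom.mem_ker.2 (sig_p c)))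

theorem card_comap (K : Subgroup M) : Nat.card ↥(K.comap c.sig) = 6 * Nat.card K := by
  have h1 := Subgroup.card_mul_index (K.comap c.sig)
  rw [Subgroup.index_comap_of_surjective K c.sig_surjective] at h1
  have h2 := Subgroup.card_mul_index c.sig.ker
  rw [card_ker, Subgroup.index_ker, MonoidHom.range_eq_top.2 c.sig_surjective,
    Subgroup.card_top] at h2
  rw [← h2, ← Subgroup.card_mul_index K, ← mul_assoc] at h1
  exact Nat.eq_of_mul_eq_mul_right (Nat.pos_of_ne_zero K.index_ne_zero_of_finite) h1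

theorem p_notMem_derived {K : Subgroup M} (hK : Nat.card K = 168) :
    (⟨c.p, c.p_mem_C⟩ : c.C) ∉ ⁅K.comap c.sig, K.comap c.sig⁆ := by
  haveI : Fact (Nat.Prime 3) := ⟨Nat.prime_three⟩
  intro h
  have hX := card_comap c K
  rw [hK] at hX
  generalize hXdef : K.comap c.sig = X at h hX
  rw [← Subgroup.map_subtype_commutator] at h
  obtain ⟨g, hg, hgp⟩ := h
  obtain ⟨S⟩ := (Sylow.nonempty : Nonempty (Sylow 3 ↥X))
  have hc : ∀ y : X, Commute g y := fun y => Subtype.ext (by
    show (g : c.C) * y = y * g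
    rw [show (g : c.C) = ⟨c.p, c.p_mem_C⟩ from hgp]
    exact (central_ker c (sig_p c) (y : c.C)).eq)
  have hS : Nat.card (S : Subgroup ↥X) = 3 ^ 2 := by
    rw [S.card_eq_multiplicity, hX, Nat.factorization_def _ Nat.prime_three]
    congr 1
    rw [show (6 * 168 : ℕ) = 3 ^ 2 * 112 by norm_num, padicValNat.mul (by norm_num) (by norm_num),
      padicValNat.prime_pow, padicValNat.eq_zero_of_not_dvd (by norm_num : ¬ 3 ∣ 112)]
  have hcomm : ∀ a b : (S : Subgroup ↥X), a * b = b * a := IsPGroup.commutative_of_card_eq_prime_sq hS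
  have h1 := pow_index_mem (S : Subgroup ↥X) hc hg
  have h0 : ⁅(S : Subgroup ↥X), (S : Subgroup ↥X)⁆ = ⊥ :=
    Subgroup.commutator_eq_bot_iff_le_centralizer.2 fun a ha =>
      Subgroup.mem_centralizer_iff.2 fun b hb => congrArg Subtype.val (hcomm ⟨b, hb⟩ ⟨a, ha⟩)
  rw [h0, Subgroup.mem_bot] at h1
  have h3 : g ^ 3 = 1 := Subtype.ext (Subtype.ext (by
    show ((g : c.C) : G) ^ 3 = 1
    rw [show (g : c.C) = ⟨c.p, c.p_mem_C⟩ from hgp]; exact c.p_cube))
  have hg1 : g = 1 := eq_one_of_pow_coprime h1 h3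
    (Nat.prime_three.coprime_iff_not_dvd.2 (Sylow.not_dvd_index S)).symm
  have hp1 : orderOf c.p = 1 := orderOf_eq_one_iff.2 (by
    have := congrArg Subtype.val hgp
    rw [hg1] at this
    exact this.symm)
  rw [c.orderOf_p] at hp1
  omega

theorem z_notMem_derived {K : Subgroup M} (eK : K ≃* SL32) :
    (⟨c.z, c.z_mem_cent_p⟩ : c.C) ∉ ⁅K.comap c.sig, K.comap c.sig⁆ := by
  classical
  intro h
  obtain ⟨ha2, hb2, ha1, hb1, hr4, hr2, hnd⟩ := dihedral_facts
  have hK : Nat.card K = 168 := (Nat.card_congr eK.toEquiv).trans card_sl32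
  have hX := card_comap c K
  rw [hK] at hX
  set Z : c.C := ⟨c.z, c.z_mem_cent_p⟩ with hZ
  -- lifts of the two involutions
  have hlift : ∀ i : SL32, i * i = 1 → i ≠ 1 →
      ∃ u : c.C, u * u = 1 ∧ c.sig u = (eK.symm i : M) := by
    intro i h2 h1
    obtain ⟨u, hu, hs⟩ := c.exists_lift (a := (eK.symm i : M)) (by
      haveI : Fact (Nat.Prime 2) := ⟨Nat.prime_two⟩
      rw [Subgroup.orderOf_coe, MulEquiv.orderOf_eq]
      exact orderOf_eq_prime (by rw [pow_two, h2]) h1)
    exact ⟨u, Subtype.ext hu, hs⟩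
  obtain ⟨a, ha, hsa⟩ := hlift ia ha2 ha1
  obtain ⟨b, hb, hsb⟩ := hlift ib hb2 hb1
  have hainv : a⁻¹ = a := inv_eq_of_mul_eq_one_right ha
  have hbinv : b⁻¹ = b := inv_eq_of_mul_eq_one_right hb
  set r := a * b with hr
  have hsr : c.sig r = ((eK.symm (ia * ib) : K) : M) := by
    rw [hr, map_mul, hsa, hsb, map_mul, Subgroup.coe_mul]
  have hsrn : ∀ n : ℕ, c.sig (r ^ n) = ((eK.symm ((ia * ib) ^ n) : K) : M) := fun n => by
    rw [map_pow, hsr, map_pow, Subgroup.coe_pow]
  -- the product of the lifts has order four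
  obtain ⟨u, hu, hsu⟩ := hlift ((ia * ib) ^ 2)
    (by rw [← pow_add]; exact hr4) hr2
  have hk : c.sig (u⁻¹ * r ^ 2) = 1 := by
    rw [map_mul, map_inv, hsu, hsrn 2, inv_mul_cancel]
  obtain ⟨t, i, ht, hk'⟩ := ker_form c hk
  have hr12 : r ^ 12 = 1 := by
    have h1 : r ^ 2 = u * (u⁻¹ * r ^ 2) := by group
    have h2 : r ^ 12 = (r ^ 2) ^ 6 := by rw [← pow_mul]
    rw [h2, h1, Commute.mul_pow (central_ker c hk u).symm]
    have h6 : u ^ 6 = 1 := by rw [show (6 : ℕ) = 2 * 3 by norm_num, pow_mul, pow_two, hu, one_pow]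
    rw [h6, one_mul]
    apply Subtype.ext
    rw [Subgroup.coe_pow, hk', Subgroup.coe_one]
    have htp : Commute t (c.p ^ i) := by
      rcases ht with rfl | rfl
      · exact Commute.one_left _
      · exact ((Jf18.mem_cz.1 c.p_mem_H).zpow_left i).symm
    have ht6 : t ^ 6 = 1 := by
      rcases ht with rfl | rfl
      · exact one_pow 6
      · rw [show (6 : ℕ) = 2 * 3 by norm_num, pow_mul, pow_two, c.z_mul_self, one_pow]
    rw [htp.mul_pow, ht6, one_mul, ← zpow_natCast, ← zpow_mul, mul_comm, zpow_mul, zpow_natCast,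
      show (6 : ℕ) = 3 * 2 by norm_num, pow_mul, c.p_cube, one_pow, one_zpow]
  have har : a * r * a⁻¹ = r⁻¹ := by
    rw [hr, mul_inv_rev, hainv, hbinv, ← mul_assoc a a b, ha, one_mul]
  have hk4 : c.sig (r ^ 4) = 1 := by
    rw [hsrn 4, hr4, map_one, Subgroup.coe_one]
  have hr8 : r ^ 8 = 1 := by
    have h1 : a * r ^ 4 * a⁻¹ = (r⁻¹) ^ 4 := by rw [← conj_pow, har]
    rw [← (central_ker c hk4 a).eq, mul_inv_cancel_right, inv_pow] at h1
    have h2 := mul_inv_eq_one.2 (rfl : r ^ 4 = r ^ 4)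
    rw [← h1, ← pow_add] at h2
    exact h2
  have hr4' : r ^ 4 = 1 := by
    have h1 : r ^ 12 = r ^ 8 * r ^ 4 := by rw [← pow_add]
    rw [hr12, hr8, one_mul] at h1
    exact h1.symm
  -- the dihedral group
  set T := Subgroup.zpowers r ⊔ Subgroup.zpowers a with hT
  have hnorm : Subgroup.zpowers a ≤ Subgroup.normalizer (Subgroup.zpowers r : Set c.C) := by
    rw [Subgroup.zpowers_le]
    refine Subgroup.mem_normalizer_fintype fun x hx => ?_
    obtain ⟨n, rfl⟩ := Subgroup.mem_zpowers_iff.1 hx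
    rw [← conj_zpow, har]
    exact zpow_mem (inv_mem (Subgroup.mem_zpowers r)) n
  have hT8 : Nat.card T ≤ 8 := by
    refine (card_prod_le hnorm).trans ?_
    rw [Nat.card_zpowers, Nat.card_zpowers]
    calc orderOf r * orderOf a ≤ 4 * 2 :=
          Nat.mul_le_mul (orderOf_le_of_pow_eq_one (by norm_num) hr4')
            (orderOf_le_of_pow_eq_one (by norm_num) (by rw [pow_two, ha]))
      _ = 8 := rfl
  have hrT : r ∈ T := Subgroup.mem_sup_left (Subgroup.mem_zpowers r)
  have haT : a ∈ T := Subgroup.mem_sup_right (Subgroup.mem_zpowers a)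
  have hT8' : 8 ≤ Nat.card ↥(T.map c.sig) := by
    let l : List SL32 := [1, ia * ib, (ia * ib) ^ 2, (ia * ib) ^ 3, ia, ia * ib * ia,
      (ia * ib) ^ 2 * ia, (ia * ib) ^ 3 * ia]
    have hmem : ∀ s ∈ l, ((eK.symm s : K) : M) ∈ T.map c.sig := by
      have hra : ∀ n : ℕ, ((eK.symm ((ia * ib) ^ n * ia) : K) : M) ∈ T.map c.sig := fun n =>
        ⟨r ^ n * a, mul_mem (pow_mem hrT n) haT,
          by rw [map_mul, hsrn, hsa, map_mul, Subgroup.coe_mul]⟩
      have hrn : ∀ n : ℕ, ((eK.symm ((ia * ib) ^ n) : K) : M) ∈ T.map c.sig := fun n =>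
        ⟨r ^ n, pow_mem hrT n, hsrn n⟩
      intro s hs
      simp only [l, List.mem_cons, List.not_mem_nil, or_false] at hs
      rcases hs with rfl | rfl | rfl | rfl | rfl | rfl | rfl | rfl
      · simpa using hrn 0
      · simpa using hrn 1
      · exact hrn 2
      · exact hrn 3
      · simpa using hra 0
      · simpa using hra 1
      · exact hra 2
      · exact hra 3
    have := Nat.card_le_card_of_injective
      (fun i : Fin l.length => (⟨_, hmem _ (List.get_mem l i)⟩ : ↥(T.map c.sig)))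
      fun i j e => List.nodup_iff_injective_get.1 hnd
        (eK.symm.injective (Subtype.ext (Subtype.mk.inj e)))
    simpa [l] using this
  have hTc : Nat.card T = 8 := le_antisymm hT8 (hT8'.trans (Nat.le_of_dvd Nat.card_pos
    (Subgroup.card_map_dvd T c.sig)))
  have hZ2 : Z * Z = 1 := Subtype.ext c.z_mul_self
  have hZ1 : Z ≠ 1 := fun e => c.z_ne_one (congrArg Subtype.val e)
  have hZT : Z ∉ T := by
    intro hz
    have hinj : Function.Injective (c.sig.subgroupMap T) := by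
      refine ((Nat.bijective_iff_surjective_and_card _).2
        ⟨c.sig.subgroupMap_surjective T, ?_⟩).1
      have := Nat.le_of_dvd Nat.card_pos (Subgroup.card_map_dvd T c.sig)
      omega
    have h1 : (⟨Z, hz⟩ : T) = 1 := hinj (Subtype.ext ((sig_z c).trans (map_one c.sig).symm))
    exact hZ1 (congrArg Subtype.val h1)
  -- transfer to the group generated by `z` and the dihedral group
  set S := Subgroup.zpowers Z ⊔ T with hS
  have hTn : T ≤ Subgroup.normalizer (Subgroup.zpowers Z : Set c.C) := fun y _ =>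
    Subgroup.centralizer_le_normalizer _ (Subgroup.mem_centralizer_iff.2 (by
      rintro _ ⟨n, rfl⟩
      exact ((central_ker c (sig_z c) y).zpow_left n).eq))
  have hSe : ∀ y ∈ S, ∃ n : ℤ, ∃ v ∈ T, y = Z ^ n * v := by
    intro y hy
    rw [hS, ← SetLike.mem_coe, Subgroup.coe_mul_of_right_le_normalizer_left _ _ hTn] at hy
    obtain ⟨_, ⟨n, rfl⟩, v, hv, rfl⟩ := hy
    exact ⟨n, v, hv, rfl⟩
  have hS16 : Nat.card S = 16 := by
    refine le_antisymm ((card_prod_le hTn).trans ?_) ?_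
    · rw [hTc, Nat.card_zpowers]
      exact Nat.mul_le_mul_right 8 (orderOf_le_of_pow_eq_one (n := 2) (by norm_num) (by rw [pow_two, hZ2]))
    · have h8 : 8 ∣ Nat.card S := hTc ▸ Subgroup.card_dvd_of_le le_sup_right
      have hne : Nat.card S ≠ 8 := fun e => hZT (by
        rw [Subgroup.eq_of_le_of_card_ge (le_sup_right : T ≤ S) (by rw [e, hTc])]
        exact Subgroup.mem_sup_left (Subgroup.mem_zpowers Z))
      obtain ⟨m, hm⟩ := h8
      have : 0 < Nat.card S := Nat.card_pos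
      omega
  have hsub : ⁅S, S⁆ ≤ T := by
    refine Subgroup.commutator_le.2 fun x hx y hy => ?_
    obtain ⟨n, v, hv, rfl⟩ := hSe x hx
    obtain ⟨m, w, hw, rfl⟩ := hSe y hy
    have hc1 : ∀ y : c.C, Commute (Z ^ n) y := fun y => (central_ker c (sig_z c) y).zpow_left n
    have hc2 : ∀ y : c.C, Commute (Z ^ m) y := fun y => (central_ker c (sig_z c) y).zpow_left m
    have e : ⁅Z ^ n * v, Z ^ m * w⁆ = ⁅v, w⁆ := by
      simp only [commutatorElement_def, mul_inv_rev]
      calc Z ^ n * v * (Z ^ m * w) * (v⁻¹ * (Z ^ n)⁻¹) * (w⁻¹ * (Z ^ m)⁻¹)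
          = Z ^ n * (v * Z ^ m) * w * v⁻¹ * ((Z ^ n)⁻¹ * w⁻¹) * (Z ^ m)⁻¹ := by group
        _ = Z ^ n * (Z ^ m * v) * w * v⁻¹ * (w⁻¹ * (Z ^ n)⁻¹) * (Z ^ m)⁻¹ := by
            rw [(hc2 v).eq, ((hc1 w⁻¹).inv_left).eq]
        _ = (Z ^ n * Z ^ m) * (v * w * v⁻¹ * w⁻¹) * ((Z ^ n * Z ^ m))⁻¹ := by
            rw [mul_inv_rev, ← (hc1 (Z ^ m)).inv_inv.eq]; group
        _ = v * w * v⁻¹ * w⁻¹ := by
            rw [((hc1 _).mul_left (hc2 _)).eq, mul_inv_cancel_right]
    rw [e]
    exact Subgroup.commutator_le_self T (Subgroup.commutator_mem_commutator hv hw)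
  generalize hXdef : K.comap c.sig = X at h hX
  have hSX : S ≤ X := by
    rw [← hXdef]
    refine sup_le (Subgroup.zpowers_le.2 ?_) (sup_le (Subgroup.zpowers_le.2 ?_)
      (Subgroup.zpowers_le.2 ?_))
    · show c.sig Z ∈ K
      rw [hZ, sig_z c]; exact one_mem _
    · show c.sig r ∈ K
      rw [hsr]; exact Subtype.property _
    · show c.sig a ∈ K
      rw [hsa]; exact Subtype.property _
  rw [← Subgroup.map_subtype_commutator] at h
  obtain ⟨g, hg, hgz⟩ := h
  have hc : ∀ y : X, Commute g y := fun y => Subtype.ext (by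
    show (g : c.C) * y = y * g
    rw [show (g : c.C) = Z from hgz]
    exact (central_ker c (sig_z c) (y : c.C)).eq)
  have h1 := pow_index_mem (S.subgroupOf X) hc hg
  have hidx : (S.subgroupOf X).index = 63 := by
    have := Subgroup.card_mul_index (S.subgroupOf X)
    rw [Nat.card_congr (Subgroup.subgroupOfEquivOfLe hSX).toEquiv, hS16, hX] at this
    omega
  rw [hidx] at h1
  have h63 : (g : c.C) ^ 63 ∈ ⁅S, S⁆ := by
    have h2 := Subgroup.mem_map_of_mem X.subtype h1
    rw [Subgroup.map_commutator, Subgroup.map_subgroupOf_eq_of_le hSX] at h2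
    simpa using h2
  rw [show (g : c.C) = Z from hgz, show (63 : ℕ) = 2 * 31 + 1 by norm_num, pow_succ, pow_mul,
    pow_two, hZ2, one_pow, one_mul] at h63
  exact hZT (hsub h63)

/-- A subgroup `L₃(2)` of `M22` lifts to the centralizer of the element of order three. -/
theorem exists_lift_sl32 (K : Subgroup M) (eK : K ≃* SL32) :
    ∃ D : Subgroup c.C, D ≤ K.comap c.sig ∧ Nonempty (D ≃* SL32) := by
  have hK : Nat.card K = 168 := (Nat.card_congr eK.toEquiv).trans card_sl32
  have hmap : ⁅K.comap c.sig, K.comap c.sig⁆.map c.sig = K := by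
    rw [Subgroup.map_commutator, Subgroup.map_comap_eq_self_of_surjective c.sig_surjective]
    have hperf : commutator K = ⊤ := by
      have h := congrArg (Subgroup.map eK.symm.toMonoidHom) commutator_sl32
      rwa [commutator_def, Subgroup.map_commutator, Subgroup.map_top_of_surjective _
        eK.symm.surjective, ← commutator_def] at h
    rw [← Subgroup.map_subtype_commutator, hperf, ← MonoidHom.range_eq_map, Subgroup.range_subtype]
  set D := ⁅K.comap c.sig, K.comap c.sig⁆ with hD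
  have hker : ∀ u ∈ D, c.sig u = 1 → u = 1 := by
    intro u hu h1
    obtain ⟨t, i, ht, he⟩ := ker_form c h1
    have htp : Commute t (c.p ^ i) := by
      rcases ht with rfl | rfl
      · exact Commute.one_left _
      · exact ((Jf18.mem_cz.1 c.p_mem_H).zpow_left i).symm
    have hp3 : (c.p ^ i) ^ 3 = 1 := by
      rw [← zpow_natCast, ← zpow_mul, mul_comm, zpow_mul, zpow_natCast, c.p_cube, one_zpow]
    rcases ht with rfl | rfl
    · -- a power of the element of order three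
      rw [one_mul] at he
      by_contra hne
      have hi : ¬ (3 : ℤ) ∣ i := by
        rintro ⟨k, rfl⟩
        exact hne (Subtype.ext (by
          rw [he, zpow_mul, zpow_ofNat, c.p_cube, one_zpow, Subgroup.coe_one]))
      obtain ⟨a, b, hab⟩ : IsCoprime (3 : ℤ) i := Int.prime_three.coprime_iff_not_dvd.2 hi
      apply p_notMem_derived c hK
      have hpow : (⟨c.p, c.p_mem_C⟩ : c.C) = u ^ b := by
        apply Subtype.ext
        rw [Subgroup.coe_zpow, he, ← zpow_mul]
        show c.p = _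
        have h3 : c.p ^ (a * 3) = 1 := by
          rw [mul_comm, zpow_mul, zpow_ofNat, c.p_cube, one_zpow]
        calc c.p = c.p ^ (a * 3 + b * i) := by rw [hab, zpow_one]
          _ = c.p ^ (i * b) := by rw [zpow_add, h3, one_mul, mul_comm]
      rw [hpow]
      exact zpow_mem hu b
    · exfalso
      apply z_notMem_derived c eK
      have hpow : (⟨c.z, c.z_mem_cent_p⟩ : c.C) = u ^ 3 := by
        apply Subtype.ext
        rw [Subgroup.coe_pow, he, htp.mul_pow, hp3, mul_one, pow_succ, pow_two, c.z_mul_self,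
          one_mul]
      rw [hpow]
      exact pow_mem hu 3
  refine ⟨D, Subgroup.commutator_le_self _, ⟨(MulEquiv.ofBijective (c.sig.subgroupMap D)
    ⟨?_, c.sig.subgroupMap_surjective D⟩).trans ((MulEquiv.subgroupCongr hmap).trans eK)⟩⟩
  refine (injective_iff_map_eq_one _).2 fun u hu => Subtype.ext (hker u u.2 ?_)
  exact congrArg Subtype.val hu

end CfsgLib.J4Pentad.KTwo

namespace CfsgLib.J4Pentad

open CfsgLib.J4Type67 (M)

universe u

variable {G : Type u} [Group G] [Finite G] (d : Pentad G)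

theorem Pentad.centE_le_normalizer :
    Subgroup.centralizer (d.E : Set G) ≤ Subgroup.normalizer (d.E : Set G) :=
  Subgroup.centralizer_le_normalizer _

theorem Pentad.I_le_normalizer_L : d.I ≤ Subgroup.normalizer (d.L : Set G) :=
  d.I_le.trans (d.centE_le_normalizer.trans d.normalizer_le_L)

theorem Pentad.mem_centE_split {g : G} (hg : g ∈ Subgroup.centralizer (d.E : Set G)) :
    ∃ l ∈ d.L, ∃ i ∈ d.I, g = l * i := by
  rw [← d.L_sup_I, ← SetLike.mem_coe,
    Subgroup.coe_mul_of_right_le_normalizer_left _ _ d.I_le_normalizer_L] at hg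
  obtain ⟨l, hl, i, hi, rfl⟩ := hg
  exact ⟨l, hl, i, hi, rfl⟩

theorem Pentad.split_unique {l l' i i' : G} (hl : l ∈ d.L) (hl' : l' ∈ d.L) (hi : i ∈ d.I)
    (hi' : i' ∈ d.I) (h : l * i = l' * i') : l = l' ∧ i = i' := by
  have h1 : l'⁻¹ * l = i' * i⁻¹ := by
    calc l'⁻¹ * l = l'⁻¹ * (l * i) * i⁻¹ := by group
      _ = i' * i⁻¹ := by rw [h]; group
  have h2 : l'⁻¹ * l ∈ d.L ⊓ d.I :=
    Subgroup.mem_inf.2 ⟨mul_mem (inv_mem hl') hl, h1 ▸ mul_mem hi' (inv_mem hi)⟩
  rw [d.L_inf_I, Subgroup.mem_bot] at h2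
  exact ⟨(inv_mul_eq_one.1 h2).symm, (mul_inv_eq_one.1 (h1 ▸ h2)).symm⟩

theorem Pentad.card_centE : Nat.card ↥(Subgroup.centralizer (d.E : Set G)) = 2 ^ 15 * 120 := by
  obtain ⟨e⟩ := d.eI
  have hI : Nat.card d.I = 120 := by
    rw [Nat.card_congr e.toEquiv, Nat.card_perm, Nat.card_fin]; rfl
  rw [← d.card_L, ← hI, ← Nat.card_prod]
  refine (Nat.card_congr (Equiv.ofBijective (fun p : d.L × d.I =>
    (⟨(p.1 : G) * p.2, d.L_sup_I ▸ mul_mem (Subgroup.mem_sup_left p.1.2)
      (Subgroup.mem_sup_right p.2.2)⟩ : ↥(Subgroup.centralizer (d.E : Set G)))) ⟨?_, ?_⟩)).symm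
  · rintro ⟨a, b⟩ ⟨a', b'⟩ h
    obtain ⟨h1, h2⟩ := d.split_unique a.2 a'.2 b.2 b'.2 (congrArg Subtype.val h)
    exact Prod.ext (Subtype.ext h1) (Subtype.ext h2)
  · rintro ⟨g, hg⟩
    obtain ⟨l, hl, i, hi, rfl⟩ := d.mem_centE_split hg
    exact ⟨(⟨l, hl⟩, ⟨i, hi⟩), rfl⟩

/-- An element of order three of `I` is inverted in `I`. -/
theorem Pentad.exists_inverter {x : G} (hx : x ∈ d.I) (h3 : x ^ 3 = 1) :
    ∃ r ∈ d.I, r * x * r⁻¹ = x⁻¹ := by
  obtain ⟨e⟩ := d.eI
  obtain ⟨τ, hτ⟩ := KTwo.s5_inverter (e ⟨x, hx⟩) (by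
    rw [← map_pow, show (⟨x, hx⟩ : d.I) ^ 3 = 1 from Subtype.ext h3, map_one])
  refine ⟨e.symm τ, (e.symm τ).2, congrArg Subtype.val
    (show e.symm τ * ⟨x, hx⟩ * (e.symm τ)⁻¹ = (⟨x, hx⟩ : d.I)⁻¹ from e.injective ?_)⟩
  rw [map_mul, map_mul, map_inv, map_inv, e.apply_symm_apply, hτ]

/-- Odd elements of `C(E)` centralizing an element of order three of `I` are powers of it. -/
theorem Pentad.odd_cent_three {x y : G} (hx : x ∈ d.I) (hox : orderOf x = 3)
    (hy : y ∈ Subgroup.centralizer (d.E : Set G)) (hc : Commute y x) (hodd : Odd (orderOf y)) :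
    y ∈ Subgroup.zpowers x := by
  obtain ⟨l, hl, i, hi, rfl⟩ := d.mem_centE_split hy
  have hxL : ∀ m ∈ d.L, x * m * x⁻¹ ∈ d.L := fun m hm =>
    (Subgroup.mem_normalizer_iff.1 (d.I_le_normalizer_L hx) m).1 hm
  obtain ⟨hlx, hix⟩ := d.split_unique (hxL l hl) hl (mul_mem (mul_mem hx hi) (inv_mem hx)) hi
    (by
      calc x * l * x⁻¹ * (x * i * x⁻¹) = x * (l * i) * x⁻¹ := by group
        _ = l * i := by rw [← hc.eq, mul_inv_cancel_right])
  have hcl : Commute x l := mul_inv_eq_iff_eq_mul.1 hlx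
  have hci : Commute x i := mul_inv_eq_iff_eq_mul.1 hix
  set n := orderOf (l * i) with hn
  have hpow : ∀ k : ℕ, ∃ m ∈ d.L, (l * i) ^ k = m * i ^ k := by
    intro k
    induction k with
    | zero => exact ⟨1, one_mem _, by simp⟩
    | succ k ih =>
      obtain ⟨m, hm, e⟩ := ih
      refine ⟨m * (i ^ k * l * (i ^ k)⁻¹), mul_mem hm ?_, ?_⟩
      · exact (Subgroup.mem_normalizer_iff.1 (d.I_le_normalizer_L (pow_mem hi k)) l).1 hl
      · rw [pow_succ, e, pow_succ]; group
  obtain ⟨m, hm, e⟩ := hpow n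
  rw [hn, pow_orderOf_eq_one] at e
  have hin : i ^ n = 1 :=
    ((d.split_unique hm (one_mem _) (pow_mem hi n) (one_mem _) (by
      rw [mul_one]; exact e.symm)).2)
  obtain ⟨eI⟩ := d.eI
  have h120 : i ^ 120 = 1 := by
    have h : orderOf i ∣ 120 := by
      have := Subgroup.orderOf_dvd_natCard d.I hi
      rwa [Nat.card_congr eI.toEquiv, Nat.card_perm, Nat.card_fin] at this
    exact orderOf_dvd_iff_pow_eq_one.1 h
  have h15 : i ^ 15 = 1 := by
    apply orderOf_dvd_iff_pow_eq_one.1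
    have h1 : orderOf i ∣ 120 := orderOf_dvd_of_pow_eq_one h120
    have h2 : Odd (orderOf i) := hodd.of_dvd_nat (orderOf_dvd_of_pow_eq_one hin)
    have h3 : Nat.Coprime (orderOf i) 8 := by
      rw [show (8 : ℕ) = 2 ^ 3 by norm_num]
      exact Nat.Coprime.pow_right 3 (Nat.coprime_two_right.2 h2)
    exact h3.dvd_of_dvd_mul_left (by rwa [show (120 : ℕ) = 8 * 15 by norm_num] at h1)
  have hx3 : x ^ 3 = 1 := hox ▸ pow_orderOf_eq_one x
  have hi' : i = 1 ∨ i = x ∨ i = x ^ 2 := by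
    have hne : eI ⟨x, hx⟩ ≠ 1 := fun h => by
      rw [MulEquiv.map_eq_one_iff] at h
      rw [show x = 1 from congrArg Subtype.val h, orderOf_one] at hox
      omega
    have := KTwo.s5_cent (eI ⟨x, hx⟩)
      (by rw [← map_pow, show (⟨x, hx⟩ : d.I) ^ 3 = 1 from Subtype.ext hx3, map_one]) hne
      (eI ⟨i, hi⟩) (by rw [← map_pow, show (⟨i, hi⟩ : d.I) ^ 15 = 1 from Subtype.ext h15, map_one])
      (by rw [← map_mul, ← map_mul]; exact congrArg eI (Subtype.ext hci.eq.symm))
    rcases this with h | h | h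
    · exact Or.inl (congrArg Subtype.val (eI.injective (h.trans (map_one eI).symm)))
    · exact Or.inr (Or.inl (congrArg Subtype.val (eI.injective h)))
    · exact Or.inr (Or.inr (congrArg Subtype.val
        (eI.injective (h.trans (map_pow eI _ 2).symm))))
  have hip : i ∈ Subgroup.zpowers x := by
    rcases hi' with h | h | h <;> rw [h]
    · exact one_mem _
    · exact Subgroup.mem_zpowers x
    · exact pow_mem (Subgroup.mem_zpowers x) 2
  have hi3 : i ^ 3 = 1 := by
    rcases hi' with h | h | h <;> rw [h]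
    · exact one_pow 3
    · exact hx3
    · rw [← pow_mul, mul_comm, pow_mul, hx3, one_pow]
  have hli : Commute l i := by
    rcases hi' with h | h | h <;> rw [h]
    · exact Commute.one_right l
    · exact hcl.symm
    · exact hcl.symm.pow_right 2
  have hl1 : l = 1 := by
    obtain ⟨k, hk⟩ := d.isPGroup_L ⟨l, hl⟩
    have hk' : l ^ 2 ^ k = 1 := congrArg Subtype.val hk
    have hn3 : l ^ (3 * n) = 1 := by
      have h1 : (l * i) ^ (3 * n) = 1 := by
        rw [mul_comm, pow_mul, hn, pow_orderOf_eq_one, one_pow]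
      rw [hli.mul_pow] at h1
      rwa [pow_mul i, hi3, one_pow, mul_one] at h1
    refine KTwo.eq_one_of_pow_coprime hn3 hk' (Nat.Coprime.pow_right k ?_)
    exact Nat.coprime_two_right.2 ((by decide : Odd 3).mul hodd)
  rw [hl1, one_mul]
  exact hip

theorem Pentad.exists_sl32
    (hsix : ∀ x : G, orderOf x = 3 → ∃ P : Subgroup G, ∃ z' : G, P = Subgroup.zpowers x ∧
      Cfsg.IsOfJankoFourTypeWith z' P ∧
      Subgroup.centralizer ({x} : Set G) ≤ Subgroup.centralizer ({z'} : Set G)) :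
    ∃ K₂ : Subgroup G, K₂ ≤ Subgroup.normalizer (d.L : Set G) ∧
      Nonempty (↥K₂ ≃* Matrix.SpecialLinearGroup (Fin 3) (ZMod 2)) := by
  classical
  obtain ⟨x, ⟨hxI, hxC⟩, hox⟩ := d.exists_three
  obtain ⟨_, z', rfl, hJ, hle⟩ := hsix x hox
  obtain ⟨c, rfl, hp⟩ := Jf18.exists_ctx hJ
  set N := Subgroup.normalizer (d.E : Set G) with hN
  set CE := Subgroup.centralizer (d.E : Set G) with hCE
  have hCEN : CE ≤ N := d.centE_le_normalizer
  -- the centralizer of `x`
  have hpx : ∀ g : G, Commute g c.p ↔ Commute g x := by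
    intro g
    have h1 : x ∈ Subgroup.zpowers c.p := hp ▸ Subgroup.mem_zpowers x
    have h2 : c.p ∈ Subgroup.zpowers x := hp ▸ Subgroup.mem_zpowers c.p
    obtain ⟨a, ha⟩ := h1
    obtain ⟨b, hb⟩ := h2
    simp only at ha hb
    exact ⟨fun h => ha ▸ h.zpow_right a, fun h => hb ▸ h.zpow_right b⟩
  have hCmem : ∀ g : G, g ∈ c.C ↔ Commute g x := fun g => by
    rw [c.mem_C, hpx]
    exact ⟨fun h => h.2, fun h => ⟨Jf18.mem_cz.1 (hle (Jf18.mem_cz.2 h)), h⟩⟩
  have hxE : ∀ e ∈ d.E, Commute e x := fun e he => Subgroup.mem_centralizer_iff.1 hxC e he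
  have hEC : d.E ≤ c.C := fun e he => (hCmem e).2 (hxE e he)
  -- every coset of the centralizer of `E` meets the centralizer of `x`
  have h3CE : 3 ∣ Nat.card ↥CE := d.three
  have hFr : ∀ g ∈ N, ∃ c₁ ∈ CE, Commute (c₁ * g) x := by
    intro g hg
    haveI : Fact (Nat.Prime 3) := ⟨Nat.prime_three⟩
    have hyC : g * x * g⁻¹ ∈ CE :=
      (Subgroup.mem_normalizer_iff.1 (d.normalizer_le_normalizer_centE hg) x).1 hxC
    have hsyl : ∀ (y : ↥CE), orderOf y = 3 →
        ∃ S : Sylow 3 ↥CE, (S : Subgroup ↥CE) = Subgroup.zpowers y := by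
      intro y hy
      have hp3 : IsPGroup 3 (Subgroup.zpowers y) :=
        IsPGroup.of_card (n := 1) (by rw [Nat.card_zpowers, hy, pow_one])
      obtain ⟨S, hS⟩ := hp3.exists_le_sylow
      refine ⟨S, (Subgroup.eq_of_le_of_card_ge hS ?_).symm⟩
      obtain ⟨k, hk⟩ := IsPGroup.iff_card.1 S.isPGroup'
      rw [hk, Nat.card_zpowers, hy]
      by_contra hlt
      have h2 : 3 ^ 2 ∣ 3 ^ k := pow_dvd_pow 3 (by
        rcases k with _ | _ | k
        · norm_num at hlt
        · norm_num at hlt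
        · omega)
      exact d.not_nine_dvd ((h2.trans (hk ▸ dvd_rfl)).trans
        (Subgroup.card_subgroup_dvd_card (S : Subgroup ↥CE)))
    obtain ⟨S, hS⟩ := hsyl ⟨x, hxC⟩ (by rw [← Subgroup.orderOf_coe]; exact hox)
    obtain ⟨S', hS'⟩ := hsyl ⟨g * x * g⁻¹, hyC⟩ (by
      rw [← Subgroup.orderOf_coe]
      exact (MulAut.conj g).orderOf_eq x ▸ hox)
    obtain ⟨t, ht⟩ := MulAction.exists_smul_eq ↥CE S' S
    have hmem : t * ⟨g * x * g⁻¹, hyC⟩ * t⁻¹ ∈ Subgroup.zpowers (⟨x, hxC⟩ : ↥CE) := by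
      rw [← hS, ← ht]
      exact Subgroup.mem_map_of_mem (MulAut.conj t).toMonoidHom
        (hS' ▸ Subgroup.mem_zpowers (⟨g * x * g⁻¹, hyC⟩ : ↥CE))
    have hval : ((t : G) * g) * x * ((t : G) * g)⁻¹ ∈ Subgroup.zpowers x := by
      obtain ⟨n, hn⟩ := hmem
      refine ⟨n, ?_⟩
      have := congrArg Subtype.val hn
      simp only [Subgroup.coe_mul, Subgroup.coe_inv, Subgroup.coe_zpow] at this
      show x ^ n = _
      rw [this]; group
    rw [mem_zpowers_iff_mem_range_orderOf, hox] at hval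
    obtain ⟨n, hn, he⟩ := Finset.mem_image.1 hval
    rw [Finset.mem_range] at hn
    have hx3 : x ^ 3 = 1 := hox ▸ pow_orderOf_eq_one x
    interval_cases n
    · exfalso
      rw [pow_zero] at he
      rw [conj_eq_one_iff.1 he.symm, orderOf_one] at hox
      omega
    · rw [pow_one] at he
      exact ⟨t, t.2, mul_inv_eq_iff_eq_mul.1 he.symm⟩
    · obtain ⟨r, hr, hrx⟩ := d.exists_inverter hxI hx3
      refine ⟨r * t, mul_mem (d.I_le hr) t.2, mul_inv_eq_iff_eq_mul.1 ?_⟩
      calc (r * (t : G) * g) * x * (r * (t : G) * g)⁻¹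
          = r * (((t : G) * g) * x * ((t : G) * g)⁻¹) * r⁻¹ := by group
        _ = (r * x * r⁻¹) ^ 2 := by rw [← he, conj_pow]
        _ = x := by
            rw [hrx, inv_pow]
            exact inv_eq_of_mul_eq_one_right (by rw [← pow_succ, hx3])
  -- `z'` lies outside `E`
  have htrans : ∀ a ∈ d.E, a ≠ 1 → ∀ b ∈ d.E, b ≠ 1 →
      ∃ g ∈ c.C, g ∈ N ∧ g * a * g⁻¹ = b := by
    intro a ha ha1 b hb hb1
    obtain ⟨j, hj, hjab⟩ := d.transJ a ha ha1 b hb hb1
    obtain ⟨c₁, hc₁, hcx⟩ := hFr j (d.JE hj)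
    refine ⟨c₁ * j, (hCmem _).2 hcx, mul_mem (hCEN hc₁) (d.JE hj), ?_⟩
    calc c₁ * j * a * (c₁ * j)⁻¹ = c₁ * (j * a * j⁻¹) * c₁⁻¹ := by group
      _ = b := by rw [hjab, ← Subgroup.mem_centralizer_iff.1 hc₁ b hb, mul_inv_cancel_right]
  have hzE : c.z ∉ d.E := by
    intro hz
    obtain ⟨b, hb, hb1, hbz⟩ : ∃ b ∈ d.E, b ≠ 1 ∧ b ≠ c.z := by
      by_contra! h
      have hsub : (d.E : Set G) ⊆ ({1, c.z} : Finset G) := by
        intro b hb
        by_cases hb1 : b = 1
        · simp [hb1]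
        · simp [h b hb hb1]
      have := Set.ncard_le_ncard hsub (Finset.finite_toSet _)
      rw [Set.ncard_coe_finset, ← Nat.card_coe_set_eq] at this
      have h2 : ({1, c.z} : Finset G).card ≤ 2 := Finset.card_le_two
      have h8 := d.cardE
      simp only [SetLike.coe_sort_coe] at this
      omega
    obtain ⟨g, hg, -, hgz⟩ := htrans c.z hz c.z_ne_one b hb hb1
    apply hbz
    rw [← hgz, (c.mem_C.1 hg).1.eq, mul_inv_cancel_right]
  -- the image of `E`
  let f : ↥d.E →* M := c.sig.comp (Subgroup.inclusion hEC)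
  have hsx : ∀ (t : G) (i : ℤ), (t = 1 ∨ t = c.z) → ∀ e ∈ d.E, t * c.p ^ i = e → t = e := by
    intro t i ht e he h
    have hcp : Commute t (c.p ^ i) := by
      rcases ht with rfl | rfl
      · exact Commute.one_left _
      · exact ((Jf18.mem_cz.1 c.p_mem_H).zpow_left i).symm
    have ht2 : t * t = 1 := by
      rcases ht with rfl | rfl
      · exact one_mul 1
      · exact c.z_mul_self
    have h2 : (c.p ^ i) ^ 2 = 1 := by
      have := d.sqE e he
      rw [← h, ← pow_two, hcp.mul_pow, pow_two t, ht2, one_mul] at this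
      exact this
    have h3 : (c.p ^ i) ^ 3 = 1 := by
      rw [← zpow_natCast, ← zpow_mul, mul_comm, zpow_mul, zpow_natCast, c.p_cube, one_zpow]
    rw [← h, KTwo.eq_one_of_pow_coprime h2 h3 (by norm_num), mul_one]
  have hf : Function.Injective f := by
    refine (injective_iff_map_eq_one f).2 fun e he => ?_
    obtain ⟨t, i, ht, h⟩ := KTwo.ker_form c (u := Subgroup.inclusion hEC e) he
    have := hsx t i ht e e.2 h.symm
    rcases ht with rfl | rfl
    · exact Subtype.ext this.symm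
    · exact absurd (this ▸ e.2) hzE
  set A : Subgroup M := f.range with hA
  have hA2 : ∀ a ∈ A, a * a = 1 := by
    rintro _ ⟨e, rfl⟩
    rw [← map_mul, show e * e = 1 from Subtype.ext (d.sqE e e.2), map_one]
  have hAc : Nat.card A = 8 := (Nat.card_congr (MonoidHom.ofInjective hf).toEquiv).symm.trans d.cardE
  -- the image of the normalizer
  let Nx : Subgroup c.C := N.subgroupOf c.C
  set T := Nx.map c.sig with hT
  have hTN : T ≤ Subgroup.normalizer (A : Set M) := by
    rintro _ ⟨g, hg, rfl⟩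
    refine Subgroup.mem_normalizer_fintype (S := (A : Set M)) ?_
    rintro _ ⟨e, rfl⟩
    refine ⟨⟨(g : G) * e * (g : G)⁻¹, (Subgroup.mem_normalizer_iff.1 hg e).1 e.2⟩, ?_⟩
    show c.sig _ = c.sig g * c.sig (Subgroup.inclusion hEC e) * (c.sig g)⁻¹
    rw [show c.sig g * c.sig (Subgroup.inclusion hEC e) * (c.sig g)⁻¹ =
      c.sig (g * Subgroup.inclusion hEC e * g⁻¹) by simp only [map_mul, map_inv]]
    rfl
  have hkerCE : ∀ u : c.C, c.sig u = 1 → (u : G) ∈ CE := by
    intro u hu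
    rw [hCE, Subgroup.mem_centralizer_iff]
    intro e he
    exact (congrArg Subtype.val (KTwo.central_ker c hu ⟨e, hEC he⟩).eq).symm
  have h1344 : 8 * 168 ∣ Nat.card T := by
    let S : Subgroup Nx := (CE.subgroupOf c.C).subgroupOf Nx
    have hSi : S.index = 168 := by
      let φ : ↥Nx →* ↥N ⧸ CE.subgroupOf N :=
        haveI : (CE.subgroupOf N).Normal := by
          rw [Subgroup.normal_subgroupOf_iff_le_normalizer hCEN]
          exact d.normalizer_le_normalizer_centE
        (QuotientGroup.mk' _).comp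
          { toFun := fun g => ⟨((g : c.C) : G), g.2⟩
            map_one' := rfl
            map_mul' := fun _ _ => rfl }
      have hφ : Function.Surjective φ := by
        intro q
        obtain ⟨⟨g, hg⟩, rfl⟩ := QuotientGroup.mk_surjective q
        obtain ⟨c₁, hc₁, hcx⟩ := hFr g hg
        refine ⟨⟨⟨c₁ * g, (hCmem _).2 hcx⟩, mul_mem (hCEN hc₁) hg⟩, QuotientGroup.eq.2 ?_⟩
        show (c₁ * g)⁻¹ * g ∈ CE
        rw [mul_inv_rev, mul_assoc]
        have := (Subgroup.mem_normalizer_iff''.1 (d.normalizer_le_normalizer_centE hg) c₁⁻¹).1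
          (inv_mem hc₁)
        rwa [mul_assoc] at this
      have hker : φ.ker = S := by
        ext g
        rw [MonoidHom.mem_ker]
        exact QuotientGroup.eq_one_iff _
      rw [← hker, Subgroup.index_ker, MonoidHom.range_eq_top.2 hφ, Subgroup.card_top,
        ← Subgroup.index_eq_card]
      have := Subgroup.card_mul_index (CE.subgroupOf N)
      rw [Nat.card_congr (Subgroup.subgroupOfEquivOfLe hCEN).toEquiv, d.card_centE,
        d.card_normalizer] at this
      exact Nat.eq_of_mul_eq_mul_left (by norm_num) this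
    let f2 : ↥Nx →* ↥T := c.sig.subgroupMap Nx
    have hf2 : Function.Surjective f2 := c.sig.subgroupMap_surjective Nx
    have hle' : f2.ker ≤ S := fun g hg => hkerCE _ (congrArg Subtype.val hg)
    have hi : (S.map f2).index = 168 := (Subgroup.index_map_eq S hf2 hle').trans hSi
    rw [← Subgroup.card_mul_index (S.map f2), hi]
    refine Nat.mul_dvd_mul_right ?_ _
    have hAle : A ≤ (S.map f2).map T.subtype := by
      rintro _ ⟨e, rfl⟩
      exact ⟨_, ⟨⟨Subgroup.inclusion hEC e, Subgroup.le_normalizer e.2⟩,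
        Subgroup.mem_centralizer_iff.2 (fun y hy => d.E_comm y hy e e.2), rfl⟩, rfl⟩
    exact hAc ▸ (Subgroup.card_dvd_of_le hAle).trans (Subgroup.card_map_dvd _ _)
  have h67 : 2 ^ 6 * 7 ∣ Nat.card ↥(Subgroup.normalizer (A : Set M)) :=
    (Dvd.intro 3 (by norm_num)).trans (h1344.trans (Subgroup.card_dvd_of_le hTN))
  obtain ⟨K, hKN, hKA, hAK⟩ := Jf18.M22.exists_complement_eight hA2 hAc h67
  -- `K` acts faithfully on the image of `E`
  have hfaith : K ⊓ Subgroup.centralizer (A : Set M) = ⊥ := by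
    rw [eq_bot_iff]
    rintro k ⟨hkK, hkC⟩
    rw [Subgroup.mem_bot]
    haveI : Fact (Nat.Prime 2) := ⟨Nat.prime_two⟩
    obtain ⟨a, b, hb2, hab⟩ : ∃ a b, ¬ 2 ∣ b ∧ orderOf k = 2 ^ a * b :=
      Nat.exists_eq_pow_mul_and_not_dvd (orderOf_pos k).ne' 2 (by norm_num)
    have hkb : k ^ b = 1 := by
      have hp2 : IsPGroup 2 (Subgroup.zpowers (k ^ b)) := by
        intro g
        refine ⟨a, Subtype.ext ?_⟩
        obtain ⟨n, hn⟩ := g.2
        rw [Subgroup.coe_pow, ← hn]
        show ((k ^ b) ^ n) ^ 2 ^ a = _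
        rw [← zpow_natCast, ← zpow_mul, mul_comm, zpow_mul, zpow_natCast, ← pow_mul, mul_comm b,
          ← hab, pow_orderOf_eq_one, one_zpow]
        rfl
      have := Jf18.M22.eight_self_centralizing hA2 hAc ((Dvd.intro_left _ rfl).trans h67) hp2
        (Subgroup.zpowers_le.2 (pow_mem hkC b)) (Subgroup.mem_zpowers _)
      have h' : k ^ b ∈ K ⊓ A := ⟨pow_mem hkK b, this⟩
      rwa [hKA, Subgroup.mem_bot] at h'
    have hkodd : Odd (orderOf k) :=
      Odd.of_dvd_nat (Nat.odd_iff.2 (Nat.two_dvd_ne_zero.1 hb2)) (orderOf_dvd_of_pow_eq_one hkb)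
    obtain ⟨y, hy⟩ := c.sig_surjective k
    obtain ⟨a', b', hb2', hab'⟩ : ∃ a' b', ¬ 2 ∣ b' ∧ orderOf y = 2 ^ a' * b' :=
      Nat.exists_eq_pow_mul_and_not_dvd (orderOf_pos y).ne' 2 (by norm_num)
    set w := y ^ 2 ^ a' with hw
    have hwodd : Odd (orderOf w) := by
      have : w ^ b' = 1 := by rw [hw, ← pow_mul, ← hab', pow_orderOf_eq_one]
      exact Odd.of_dvd_nat (Nat.odd_iff.2 (Nat.two_dvd_ne_zero.1 hb2'))
        (orderOf_dvd_of_pow_eq_one this)
    have hwk : c.sig w = k ^ 2 ^ a' := by rw [hw, map_pow, hy]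
    -- `w` fixes `E`
    have hwE : ∀ e ∈ d.E, (w : G) * e * (w : G)⁻¹ = e ∨ (w : G) * e * (w : G)⁻¹ = c.z * e := by
      intro e he
      have hse : c.sig ⟨e, hEC he⟩ ∈ A := ⟨⟨e, he⟩, rfl⟩
      have hk0 : c.sig (w * ⟨e, hEC he⟩ * w⁻¹ * (⟨e, hEC he⟩ : c.C)⁻¹) = 1 := by
        simp only [map_mul, map_inv, hwk]
        rw [← (Subgroup.mem_centralizer_iff.1 (pow_mem hkC _) _ hse), mul_inv_cancel_right,
          mul_inv_cancel]
      obtain ⟨t, i, ht, h⟩ := KTwo.ker_form c hk0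
      simp only [Subgroup.coe_mul, Subgroup.coe_inv] at h
      have hconj : (w : G) * e * (w : G)⁻¹ = t * c.p ^ i * e := by rw [← h]; group
      have hpe : Commute (c.p ^ i) e := (((hpx e).2 (hxE e he)).zpow_right i).symm
      have hte : Commute t e := by
        rcases ht with rfl | rfl
        · exact Commute.one_left _
        · exact (c.mem_C.1 (hEC he)).1.symm
      have htp : Commute t (c.p ^ i) := by
        rcases ht with rfl | rfl
        · exact Commute.one_left _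
        · exact ((Jf18.mem_cz.1 c.p_mem_H).zpow_left i).symm
      have hsq : ((w : G) * e * (w : G)⁻¹) ^ 2 = 1 := by
        rw [conj_pow, pow_two, d.sqE e he, mul_one, mul_inv_cancel]
      rw [hconj, (hte.mul_left hpe).mul_pow, pow_two e, d.sqE e he, mul_one, htp.mul_pow] at hsq
      have ht2 : t ^ 2 = 1 := by
        rcases ht with rfl | rfl
        · exact one_pow 2
        · rw [pow_two]; exact c.z_mul_self
      rw [ht2, one_mul] at hsq
      have h3 : (c.p ^ i) ^ 3 = 1 := by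
        rw [← zpow_natCast, ← zpow_mul, mul_comm, zpow_mul, zpow_natCast, c.p_cube, one_zpow]
      rw [KTwo.eq_one_of_pow_coprime hsq h3 (by norm_num), mul_one] at hconj
      rcases ht with rfl | rfl
      · exact Or.inl (by rw [hconj, one_mul])
      · exact Or.inr hconj
    have hw2 : ((w : G) * w) ∈ CE := by
      rw [hCE, Subgroup.mem_centralizer_iff]
      intro e he
      refine (mul_inv_eq_iff_eq_mul.1 ?_).symm
      have hwz : Commute (w : G) c.z := (c.mem_C.1 w.2).1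
      rcases hwE e he with h | h
      · calc (w : G) * w * e * ((w : G) * w)⁻¹ = w * (w * e * (w : G)⁻¹) * (w : G)⁻¹ := by group
          _ = e := by rw [h, h]
      · calc (w : G) * w * e * ((w : G) * w)⁻¹ = w * (w * e * (w : G)⁻¹) * (w : G)⁻¹ := by group
          _ = w * (c.z * e) * (w : G)⁻¹ := by rw [h]
          _ = (w * c.z * (w : G)⁻¹) * (w * e * (w : G)⁻¹) := by group
          _ = e := by rw [hwz.eq, mul_inv_cancel_right, h, ← mul_assoc, c.z_mul_self, one_mul]
    have hwCE : (w : G) ∈ CE := by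
      obtain ⟨j, hj⟩ := hwodd
      have h1 : (w : G) = ((w : G) * w) ^ (j + 1) := by
        have hn : (w : G) ^ orderOf w = 1 := congrArg Subtype.val (pow_orderOf_eq_one w)
        rw [← pow_two, ← pow_mul, show 2 * (j + 1) = 2 * j + 1 + 1 by ring, pow_succ, ← hj,
          hn, one_mul]
      rw [h1]
      exact pow_mem hw2 _
    have hwx := d.odd_cent_three hxI hox hwCE ((hCmem _).1 w.2)
      (by rwa [Subgroup.orderOf_coe])
    have hw1 : c.sig w = 1 := c.sig_eq_one.2 (Subgroup.mem_sup_right (hp ▸ hwx))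
    rw [hwk] at hw1
    refine KTwo.eq_one_of_pow_coprime hw1 (pow_orderOf_eq_one k) ?_
    exact Nat.Coprime.pow_left _ (Nat.coprime_two_left.2 hkodd)
  let ψ : ↥K →* MulAut ↥A := A.normalizerMonoidHom.comp (Subgroup.inclusion hKN)
  have hψ : Function.Injective ψ := by
    refine (injective_iff_map_eq_one ψ).2 fun k hk => ?_
    have : (k : M) ∈
        K ⊓ Subgroup.centralizer (A : Set M) := by
      refine ⟨k.2, Subgroup.mem_centralizer_iff.2 fun a ha => ?_⟩
      have h := congrArg Subtype.val (MulEquiv.congr_fun hk ⟨a, ha⟩)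
      exact (mul_inv_eq_iff_eq_mul.1 h).symm
    rw [hfaith, Subgroup.mem_bot] at this
    exact Subtype.ext this
  obtain ⟨θ, hθ⟩ := KTwo.exists_hom_sl32 (W := ↥A) (fun a => Subtype.ext (hA2 a a.2)) hAc
  have hK168 : Nat.card K ≤ 168 :=
    CfsgLib.SmallRadical.card_sl32 ▸ Nat.card_le_card_of_injective (θ.comp ψ) (hθ.comp hψ)
  have hNA : Nat.card ↥(Subgroup.normalizer (A : Set M)) ≤ 8 * Nat.card K := by
    rw [← hAK, ← hAc]
    exact KTwo.card_prod_le hKN
  have hT1 := Nat.le_of_dvd Nat.card_pos h1344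
  have hT2 := Subgroup.card_le_of_le hTN
  have hKc : Nat.card K = 168 := by omega
  have hTeq : T = Subgroup.normalizer (A : Set M) :=
    Subgroup.eq_of_le_of_card_ge hTN (by omega)
  let eK : ↥K ≃* CfsgLib.SmallRadical.SL32 := MulEquiv.ofBijective (θ.comp ψ)
    ((Nat.bijective_iff_injective_and_card _).2
      ⟨hθ.comp hψ, hKc.trans CfsgLib.SmallRadical.card_sl32.symm⟩)
  obtain ⟨D, hD, ⟨eD⟩⟩ := KTwo.exists_lift_sl32 c K eK
  refine ⟨D.map c.C.subtype, ?_,
    ⟨(D.equivMapOfInjective _ (Subgroup.subtype_injective _)).symm.trans eD⟩⟩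
  rintro _ ⟨u, hu, rfl⟩
  apply d.normalizer_le_L
  have hsu : c.sig u ∈ T := hTeq ▸ hKN (hD hu)
  obtain ⟨g, hg, hgu⟩ := hsu
  have h1 : c.sig (g⁻¹ * u) = 1 := by rw [map_mul, map_inv, hgu, inv_mul_cancel]
  have h2 := mul_mem (show (g : G) ∈ N from hg) (hCEN (hkerCE _ h1))
  simpa using h2

end CfsgLib.J4Pentad
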